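import Mathlib
import Cfsg.Agent.S0144
import Cfsg.Agent.Lib.Lead.Hall

/-!
# A bound for `{2,3}`-subgroups

`hall_bound`: in a finite group where no involution commutes with an element of order three,
commuting elements of order three generate the same subgroup and four-subgroups are
self-centralizing, a subgroup of order `2 ^ a * 3 ^ b` with `a ≥ 2`, `b ≥ 1` has order at most `24`.
-/

set_option autoImplicit false

namespace Cfsg.Agent.Lib.Helper16.Hall23

variable {G : Type*} [Group G]

/-- the automorphism group of a group of order at most four has order at most six -/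
theorem card_mulAut_le (V : Type*) [Group V] [Finite V] (hV : Nat.card V ≤ 4) :
    Nat.card (MulAut V) ≤ 6 := by
  classical
  let f : MulAut V → Equiv.Perm {v : V // v ≠ 1} := fun φ =>
    Equiv.Perm.subtypePerm (φ.toEquiv : Equiv.Perm V) (fun x => by
      show φ x ≠ 1 ↔ x ≠ 1
      exact MulEquiv.map_ne_one_iff φ)
  have hf : Function.Injective f := by
    intro φ ψ h
    ext x
    by_cases hx : x = 1
    · rw [hx, map_one, map_one]
    · have h1 := congrArg (fun σ : Equiv.Perm {v : V // v ≠ 1} => (σ ⟨x, hx⟩ : V)) h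
      simpa [f] using h1
  have h1 := Nat.card_le_card_of_injective f hf
  rw [Nat.card_perm] at h1
  have h2 : Nat.card {v : V // v ≠ 1} ≤ 3 := by
    haveI := Fintype.ofFinite V
    have h3 : Fintype.card {v : V // ¬ (v = 1)} =
        Fintype.card V - Fintype.card {v : V // v = 1} := Fintype.card_subtype_compl _
    rw [Fintype.card_subtype_eq, ← Nat.card_eq_fintype_card, ← Nat.card_eq_fintype_card] at h3
    have h4 : Nat.card {v : V // v ≠ 1} = Nat.card V - 1 := h3
    omega
  calc Nat.card (MulAut V) ≤ (Nat.card {v : V // v ≠ 1}).factorial := h1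
    _ ≤ (3 : ℕ).factorial := Nat.factorial_le h2
    _ = 6 := by decide

theorem exists_subgroup_card [Finite G] (H : Subgroup G) (p n : ℕ) [Fact p.Prime]
    (h : p ^ n ∣ Nat.card H) : ∃ W : Subgroup G, W ≤ H ∧ Nat.card W = p ^ n := by
  obtain ⟨W, hW⟩ := Sylow.exists_subgroup_card_pow_prime (G := H) p h
  exact ⟨W.map H.subtype, Subgroup.map_subtype_le W, by
    rw [Subgroup.card_map_of_injective Subtype.coe_injective, hW]⟩

theorem exists_order [Finite G] (H : Subgroup G) (p : ℕ) [Fact p.Prime]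
    (h : p ∣ Nat.card H) : ∃ x ∈ H, x ≠ 1 ∧ x ^ p = 1 := by
  obtain ⟨x, hx⟩ := exists_prime_orderOf_dvd_card' (G := H) p h
  refine ⟨x, x.2, ?_, ?_⟩
  · intro h1
    have h2 : x = 1 := Subtype.ext h1
    rw [h2, orderOf_one] at hx
    exact (Fact.out : p.Prime).one_lt.ne hx
  · have h1 := pow_orderOf_eq_one x
    rw [hx] at h1
    have h2 := congrArg Subtype.val h1
    simpa using h2

theorem pow_card_sub [Finite G] (W : Subgroup G) (w : G) (hw : w ∈ W) : w ^ Nat.card W = 1 := by
  have h1 := pow_card_eq_one' (x := (⟨w, hw⟩ : W))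
  have h2 : ((⟨w, hw⟩ : W) : G) ^ Nat.card W = 1 := by
    rw [← Subgroup.coe_pow, h1]
    rfl
  exact h2

theorem conj_ne_one {x m : G} (hm : m ≠ 1) : x * m * x⁻¹ ≠ 1 := by
  intro e
  apply hm
  have h : m = x⁻¹ * (x * m * x⁻¹) * x := by group
  rw [h, e]
  group

theorem hall_bound [Finite G] (H : Subgroup G)
    (hK : ∀ z x : G, z ≠ 1 → z * z = 1 → x ≠ 1 → x ^ 3 = 1 → z * x = x * z → False)
    (hL : ∀ x y : G, x ≠ 1 → x ^ 3 = 1 → y ≠ 1 → y ^ 3 = 1 → x * y = y * x →
      y = x ∨ y * x = 1)
    (hC : ∀ z₁ z₂ g : G, z₁ ≠ 1 → z₁ * z₁ = 1 → z₂ ≠ 1 → z₂ * z₂ = 1 → z₁ ≠ z₂ →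
      z₁ * z₂ = z₂ * z₁ → g * z₁ = z₁ * g → g * z₂ = z₂ * g →
      g = 1 ∨ g = z₁ ∨ g = z₂ ∨ g = z₁ * z₂)
    (a b : ℕ) (hcard : Nat.card H = 2 ^ a * 3 ^ b) (ha : 2 ≤ a) (hb : 1 ≤ b) :
    Nat.card H ≤ 24 := by
  haveI : Group.IsSolvable H :=
    Cfsg.Agent.S0144.result 2 3 a b Nat.prime_two Nat.prime_three hcard
  have h4 : 2 ^ 2 ∣ Nat.card H := by
    rw [hcard]
    exact Dvd.dvd.mul_right (pow_dvd_pow 2 ha) _
  have h3 : 3 ∣ Nat.card H := by
    rw [hcard]
    exact Dvd.dvd.mul_left (dvd_pow_self 3 (by omega)) _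
  haveI : Nontrivial H := by
    rw [← Finite.one_lt_card_iff_nontrivial]
    have := Nat.le_of_dvd Nat.card_pos h4
    omega
  obtain ⟨N, hNn, hNc, p, k, hp, hk, hNcard⟩ := Cfsg.Agent.Lib.Lead.Hall.exists_minimal_normal H
  set M : Subgroup G := N.map H.subtype with hM
  have hMH : M ≤ H := Subgroup.map_subtype_le N
  have hMcard : Nat.card M = p ^ k := by
    rw [hM, Subgroup.card_map_of_injective Subtype.coe_injective, hNcard]
  have hMn : ∀ h ∈ H, ∀ m ∈ M, h * m * h⁻¹ ∈ M := by
    intro h hh m hm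
    obtain ⟨n, hn, rfl⟩ := Subgroup.mem_map.mp hm
    exact Subgroup.mem_map.mpr ⟨⟨h, hh⟩ * n * ⟨h, hh⟩⁻¹, hNn.conj_mem n hn ⟨h, hh⟩, rfl⟩
  have hMc : ∀ m ∈ M, ∀ m' ∈ M, m * m' = m' * m := by
    intro m hm m' hm'
    obtain ⟨n, hn, rfl⟩ := Subgroup.mem_map.mp hm
    obtain ⟨n', hn', rfl⟩ := Subgroup.mem_map.mp hm'
    have e : (⟨n, hn⟩ : N) * ⟨n', hn'⟩ = ⟨n', hn'⟩ * ⟨n, hn⟩ := mul_comm' _ _
    have e2 := congrArg (fun t : N => ((t : H) : G)) e
    exact e2
  have hp23 : p = 2 ∨ p = 3 := by
    have h1 : p ∣ Nat.card H := by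
      have h2 : p ^ k ∣ Nat.card H := by
        rw [← hMcard]
        exact Subgroup.card_dvd_of_le hMH
      exact (dvd_pow_self p (by omega)).trans h2
    rw [hcard] at h1
    rcases (Nat.Prime.dvd_mul hp).mp h1 with h | h
    · left
      exact (Nat.prime_dvd_prime_iff_eq hp Nat.prime_two).mp (hp.dvd_of_dvd_pow h)
    · right
      exact (Nat.prime_dvd_prime_iff_eq hp Nat.prime_three).mp (hp.dvd_of_dvd_pow h)
  haveI : Fact (Nat.Prime 3) := ⟨Nat.prime_three⟩
  haveI : Fact (Nat.Prime 2) := ⟨Nat.prime_two⟩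
  obtain ⟨x, hxH, hx1, hx3⟩ := exists_order H 3 h3
  rcases hp23 with rfl | rfl
  · -- a normal 2-subgroup
    have h2M : 2 ∣ Nat.card M := by
      rw [hMcard]
      exact dvd_pow_self 2 (by omega)
    obtain ⟨z, hzM, hz1, hz2⟩ := exists_order M 2 h2M
    have hzz : z * z = 1 := by
      rw [← pow_two]
      exact hz2
    have hz'M : x * z * x⁻¹ ∈ M := hMn x hxH z hzM
    have hz'1 : x * z * x⁻¹ ≠ 1 := conj_ne_one hz1
    have hz'z' : (x * z * x⁻¹) * (x * z * x⁻¹) = 1 := by
      calc (x * z * x⁻¹) * (x * z * x⁻¹) = x * (z * z) * x⁻¹ := by group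
        _ = 1 := by rw [hzz]; group
    have hne : z ≠ x * z * x⁻¹ := by
      intro h
      apply hK z x hz1 hzz hx1 hx3
      exact (mul_inv_eq_iff_eq_mul.mp h.symm).symm
    have hcomm : z * (x * z * x⁻¹) = (x * z * x⁻¹) * z := hMc z hzM _ hz'M
    have hMsub : ∀ m ∈ M, m = 1 ∨ m = z ∨ m = x * z * x⁻¹ ∨ m = z * (x * z * x⁻¹) :=
      fun m hm => hC z (x * z * x⁻¹) m hz1 hzz hz'1 hz'z' hne hcomm (hMc m hm z hzM)
        (hMc m hm _ hz'M)
    have hCM : Subgroup.centralizer (M : Set G) ≤ M := by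
      intro g hg
      rw [Subgroup.mem_centralizer_iff] at hg
      rcases hC z (x * z * x⁻¹) g hz1 hzz hz'1 hz'z' hne hcomm (hg z hzM).symm
        (hg _ hz'M).symm with h | h | h | h
      · rw [h]; exact M.one_mem
      · rw [h]; exact hzM
      · rw [h]; exact hz'M
      · rw [h]; exact M.mul_mem hzM hz'M
    have hM4 : Nat.card M ≤ 4 := by
      classical
      have hsub : (M : Set G) ⊆ (({1, z, x * z * x⁻¹, z * (x * z * x⁻¹)} : Finset G) : Set G) := by
        intro m hm
        have := hMsub m hm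
        simp only [Finset.coe_insert, Finset.coe_singleton, Set.mem_insert_iff,
          Set.mem_singleton_iff]
        exact this
      have h1 := Set.ncard_le_ncard hsub (Finset.finite_toSet _)
      rw [Set.ncard_coe_finset] at h1
      exact h1.trans Finset.card_le_four
    have hHN : H ≤ Subgroup.normalizer (M : Set G) := by
      intro h hh
      rw [Subgroup.mem_normalizer_iff]
      intro n
      constructor
      · exact hMn h hh n
      · intro hn
        have h5 := hMn h⁻¹ (H.inv_mem hh) _ hn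
        have e : h⁻¹ * (h * n * h⁻¹) * h⁻¹⁻¹ = n := by group
        rw [e] at h5
        exact h5
    have key := Subgroup.card_dvd_of_injective _
      (QuotientGroup.kerLift_injective M.normalizerMonoidHom)
    rw [Subgroup.normalizerMonoidHom_ker, ← Subgroup.index] at key
    have hA := card_mulAut_le M hM4
    have hr : ((Subgroup.centralizer (M : Set G)).subgroupOf
        (Subgroup.normalizer (M : Set G))).index ≤ 6 :=
      (Nat.le_of_dvd Nat.card_pos key).trans hA
    have hmul := Subgroup.card_mul_index ((Subgroup.centralizer (M : Set G)).subgroupOf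
        (Subgroup.normalizer (M : Set G)))
    have hc4 : Nat.card ((Subgroup.centralizer (M : Set G)).subgroupOf
        (Subgroup.normalizer (M : Set G))) ≤ 4 := by
      rw [Nat.card_congr (Subgroup.subgroupOfEquivOfLe
        (Subgroup.centralizer_le_normalizer (M : Set G))).toEquiv]
      exact (Subgroup.card_le_of_le hCM).trans hM4
    calc Nat.card H ≤ Nat.card (Subgroup.normalizer (M : Set G)) := Subgroup.card_le_of_le hHN
      _ = Nat.card ((Subgroup.centralizer (M : Set G)).subgroupOf
            (Subgroup.normalizer (M : Set G))) *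
          ((Subgroup.centralizer (M : Set G)).subgroupOf
            (Subgroup.normalizer (M : Set G))).index := hmul.symm
      _ ≤ 4 * 6 := Nat.mul_le_mul hc4 hr
  · -- a normal 3-subgroup
    exfalso
    have h3M : 3 ∣ Nat.card M := by
      rw [hMcard]
      exact dvd_pow_self 3 (by omega)
    obtain ⟨y, hyM, hy1, hy3⟩ := exists_order M 3 h3M
    have hP : ∀ h ∈ H, h * y * h⁻¹ = y ∨ h * y * h⁻¹ * y = 1 := by
      intro h hh
      have hm := hMn h hh y hyM
      have hcube : (h * y * h⁻¹) ^ 3 = 1 := by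
        rw [conj_pow, hy3]
        group
      exact hL y (h * y * h⁻¹) hy1 hy3 (conj_ne_one hy1) hcube (hMc y hyM _ hm)
    have hinv : ∀ w ∈ H, w ≠ 1 → w * w = 1 → w * y * w⁻¹ * y = 1 := by
      intro w hw hw1 hww
      rcases hP w hw with h | h
      · exfalso
        exact hK w y hw1 hww hy1 hy3 (mul_inv_eq_iff_eq_mul.mp h)
      · exact h
    obtain ⟨W, hWH, hW⟩ := exists_subgroup_card H 2 2 h4
    have hsq : ∀ w ∈ W, w * w = 1 := by
      intro w hw
      by_contra hne
      have hwH : w ∈ H := hWH hw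
      have hcomm : (w * w) * y = y * (w * w) := by
        rcases hP w hwH with h | h
        · have e : w * y = y * w := mul_inv_eq_iff_eq_mul.mp h
          rw [mul_assoc, e, ← mul_assoc, e, mul_assoc]
        · have e1 : w * y * w⁻¹ = y⁻¹ := mul_eq_one_iff_eq_inv.mp h
          have e2 : w * y = y⁻¹ * w := mul_inv_eq_iff_eq_mul.mp e1
          have e3 : w * y⁻¹ = y * w := by
            have e5 : w * y⁻¹ * w⁻¹ = y := by
              have e4 : w * y⁻¹ * w⁻¹ = (w * y * w⁻¹)⁻¹ := by group
              rw [e4, e1, inv_inv]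
            exact mul_inv_eq_iff_eq_mul.mp e5
          rw [mul_assoc, e2, ← mul_assoc, e3, mul_assoc]
      have h4w : (w * w) * (w * w) = 1 := by
        have h5 := pow_card_sub W w hw
        rw [hW] at h5
        norm_num at h5
        calc (w * w) * (w * w) = w ^ 4 := by
              rw [show (4 : ℕ) = 2 + 2 from rfl, pow_add, pow_two]
          _ = 1 := h5
      exact hK _ y hne h4w hy1 hy3 hcomm
    obtain ⟨u, v, hu, hv, hu1, hv1, huv⟩ :
        ∃ u v : G, u ∈ W ∧ v ∈ W ∧ u ≠ 1 ∧ v ≠ 1 ∧ u ≠ v := by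
      haveI : Finite W := Nat.finite_of_card_ne_zero (by rw [hW]; norm_num)
      haveI : Fintype W := Fintype.ofFinite W
      have h2lt : 2 < Fintype.card W := by
        rw [← Nat.card_eq_fintype_card, hW]
        norm_num
      obtain ⟨a', b', c', hab, hac, hbc⟩ := Fintype.two_lt_card_iff.mp h2lt
      by_cases ha' : a' = 1
      · refine ⟨b', c', b'.2, c'.2, ?_, ?_, ?_⟩
        · intro h
          apply hab
          rw [ha']
          exact (Subtype.ext h).symm
        · intro h
          apply hac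
          rw [ha']
          exact (Subtype.ext h).symm
        · intro h
          exact hbc (Subtype.ext h)
      · by_cases hb' : b' = 1
        · refine ⟨a', c', a'.2, c'.2, ?_, ?_, ?_⟩
          · intro h
            exact ha' (Subtype.ext h)
          · intro h
            apply hbc
            rw [hb']
            exact (Subtype.ext h).symm
          · intro h
            exact hac (Subtype.ext h)
        · refine ⟨a', b', a'.2, b'.2, ?_, ?_, ?_⟩
          · intro h
            exact ha' (Subtype.ext h)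
          · intro h
            exact hb' (Subtype.ext h)
          · intro h
            exact hab (Subtype.ext h)
    have huH := hWH hu
    have hvH := hWH hv
    have huu := hsq u hu
    have hvv := hsq v hv
    have huv1 : u * v ≠ 1 := by
      intro h
      apply huv
      have h5 : u = v⁻¹ := mul_eq_one_iff_eq_inv.mp h
      rw [h5]
      exact inv_eq_of_mul_eq_one_left hvv
    have huvsq := hsq (u * v) (W.mul_mem hu hv)
    have e1 := hinv u huH hu1 huu
    have e2 := hinv v hvH hv1 hvv
    apply hK (u * v) y huv1 huvsq hy1 hy3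
    have f1 : v * y * v⁻¹ = y⁻¹ := mul_eq_one_iff_eq_inv.mp e2
    have f2 : u * y * u⁻¹ = y⁻¹ := mul_eq_one_iff_eq_inv.mp e1
    have f3 : (u * v) * y * (u * v)⁻¹ = y := by
      calc (u * v) * y * (u * v)⁻¹ = u * (v * y * v⁻¹) * u⁻¹ := by group
        _ = u * y⁻¹ * u⁻¹ := by rw [f1]
        _ = (u * y * u⁻¹)⁻¹ := by group
        _ = y := by rw [f2, inv_inv]
    exact mul_inv_eq_iff_eq_mul.mp f3

end Cfsg.Agent.Lib.Helper16.Hall23
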