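import Mathlib
import Cfsg.Prelude.Def_OddOrderLocal
import Cfsg.Agent.Lib.Lead.Hall
import Cfsg.Agent.Lib.Helper16.PSL2A4

/-!
# Hall `{2,3}`-subgroups: arithmetic, and the dihedral subgroup of `PSL₂(q)`
-/

set_option autoImplicit false

namespace Cfsg.Agent.Lib.Helper16.Hall23

open Cfsg.Agent.Lib.Helper14.SL2Odd Cfsg.Agent.Lib.Helper14.GL2Conj
open Cfsg.Agent.Lib.Helper16.SL2Four Cfsg.Agent.Lib.Helper16.PSL2A4

universe u

theorem split23 {n : ℕ} (hn : n ≠ 0) :
    ∃ a b n' : ℕ, n = 2 ^ a * 3 ^ b * n' ∧ ¬ 2 ∣ n' ∧ ¬ 3 ∣ n' := by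
  obtain ⟨a, n₁, h1, rfl⟩ := Nat.exists_eq_pow_mul_and_not_dvd hn 2 (by norm_num)
  have hn₁ : n₁ ≠ 0 := by
    rintro rfl
    simp at hn
  obtain ⟨b, n₂, h2, rfl⟩ := Nat.exists_eq_pow_mul_and_not_dvd hn₁ 3 (by norm_num)
  refine ⟨a, b, n₂, by ring, ?_, h2⟩
  intro h
  exact h1 (Dvd.dvd.mul_left h _)

theorem prime_dvd_23 {r a b : ℕ} (hr : r.Prime) (h : r ∣ 2 ^ a * 3 ^ b) : r = 2 ∨ r = 3 := by
  rcases (Nat.Prime.dvd_mul hr).mp h with h | h
  · left
    exact (Nat.prime_dvd_prime_iff_eq hr Nat.prime_two).mp (hr.dvd_of_dvd_pow h)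
  · right
    exact (Nat.prime_dvd_prime_iff_eq hr Nat.prime_three).mp (hr.dvd_of_dvd_pow h)

theorem eq_pow23 {n : ℕ} (hn : n ≠ 0) (h : ∀ r : ℕ, r.Prime → r ∣ n → r = 2 ∨ r = 3) :
    ∃ a b : ℕ, n = 2 ^ a * 3 ^ b := by
  obtain ⟨a, b, n', rfl, h2, h3⟩ := split23 hn
  refine ⟨a, b, ?_⟩
  by_cases h1 : n' = 1
  · rw [h1, mul_one]
  · exfalso
    obtain ⟨r, hr, hrd⟩ := Nat.exists_prime_and_dvd h1
    rcases h r hr (Dvd.dvd.mul_left hrd _) with rfl | rfl
    · exact h2 hrd
    · exact h3 hrd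

theorem hall_of_solvable {G : Type u} [Group G] [Finite G] (D : Subgroup G) [Group.IsSolvable D]
    (h2 : ¬ 2 ∣ D.index) (h3 : ¬ 3 ∣ D.index) :
    ∃ H : Subgroup G, Cfsg.IsPiHall ({2, 3} : Set ℕ) H := by
  obtain ⟨a, b, n', hn, hn2, hn3⟩ := split23 (n := Nat.card D) Nat.card_pos.ne'
  have hcop : (2 ^ a * 3 ^ b).Coprime n' := by
    apply Nat.Coprime.mul_left
    · exact Nat.Coprime.pow_left a ((Nat.Prime.coprime_iff_not_dvd Nat.prime_two).mpr hn2)
    · exact Nat.Coprime.pow_left b ((Nat.Prime.coprime_iff_not_dvd Nat.prime_three).mpr hn3)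
  obtain ⟨H₀, hH₀⟩ := Cfsg.Agent.Lib.Lead.Hall.hall_exists (G := D) (2 ^ a * 3 ^ b) n' hn hcop
  refine ⟨H₀.map D.subtype, ?_, ?_⟩
  · intro r hr hdvd
    rw [Subgroup.card_map_of_injective Subtype.coe_injective, hH₀] at hdvd
    rcases prime_dvd_23 hr hdvd with h | h
    · rw [h]; simp
    · rw [h]; simp
  · intro r hr hmem
    rw [Subgroup.index_map_subtype]
    have hidx : H₀.index = n' := by
      have h1 := Subgroup.card_mul_index H₀
      rw [hH₀, hn] at h1
      exact Nat.eq_of_mul_eq_mul_left (by positivity) h1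
    rw [hidx]
    intro hdvd
    rcases hmem with rfl | rfl
    · rcases (Nat.Prime.dvd_mul Nat.prime_two).mp hdvd with h | h
      · exact hn2 h
      · exact h2 h
    · rcases (Nat.Prime.dvd_mul Nat.prime_three).mp hdvd with h | h
      · exact hn3 h
      · exact h3 h

theorem hall_of_card {G : Type u} [Group G] [Finite G] (H : Subgroup G) (q c : ℕ)
    (hc : Nat.card H = c) (hG2 : 2 * Nat.card G = q * (q ^ 2 - 1)) (hodd : q % 2 = 1)
    (h3 : ¬ 3 ∣ q) (hX : q ^ 2 - 1 ≠ 0)
    (hm : 2 ^ (q ^ 2 - 1).factorization 2 * 3 ^ (q ^ 2 - 1).factorization 3 = 2 * c) :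
    Cfsg.IsPiHall ({2, 3} : Set ℕ) H := by
  have hE : 2 ^ (q ^ 2 - 1).factorization 2 * 3 ^ (q ^ 2 - 1).factorization 3 * H.index =
      q * (q ^ 2 - 1) := by
    rw [hm, ← hG2, ← Subgroup.card_mul_index H, hc]
    ring
  have hq2 : Nat.Coprime 2 q := (Nat.Prime.coprime_iff_not_dvd Nat.prime_two).mpr (by omega)
  have hq3 : Nat.Coprime 3 q := (Nat.Prime.coprime_iff_not_dvd Nat.prime_three).mpr h3
  constructor
  · intro r hr hdvd
    rw [hc] at hdvd
    have h1 : r ∣ 2 ^ (q ^ 2 - 1).factorization 2 * 3 ^ (q ^ 2 - 1).factorization 3 := by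
      rw [hm]
      exact Dvd.dvd.mul_left hdvd _
    rcases prime_dvd_23 hr h1 with h | h
    · rw [h]; simp
    · rw [h]; simp
  · intro r hr hmem hdvd
    rcases hmem with rfl | rfl
    · obtain ⟨j, hj⟩ := hdvd
      have h1 : 2 ^ ((q ^ 2 - 1).factorization 2 + 1) ∣ q * (q ^ 2 - 1) := by
        rw [← hE, hj]
        exact ⟨3 ^ (q ^ 2 - 1).factorization 3 * j, by ring⟩
      have h2 := (Nat.Coprime.pow_left _ hq2).dvd_of_dvd_mul_left h1
      exact Nat.pow_succ_factorization_not_dvd hX Nat.prime_two h2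
    · obtain ⟨j, hj⟩ := hdvd
      have h1 : 3 ^ ((q ^ 2 - 1).factorization 3 + 1) ∣ q * (q ^ 2 - 1) := by
        rw [← hE, hj]
        exact ⟨2 ^ (q ^ 2 - 1).factorization 2 * j, by ring⟩
      have h2 := (Nat.Coprime.pow_left _ hq3).dvd_of_dvd_mul_left h1
      exact Nat.pow_succ_factorization_not_dvd hX Nat.prime_three h2

theorem hall_card_eq {G : Type u} [Group G] [Finite G] (H : Subgroup G) (q a b : ℕ)
    (hcard : Nat.card H = 2 ^ a * 3 ^ b) (hi2 : ¬ 2 ∣ H.index) (hi3 : ¬ 3 ∣ H.index)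
    (hG2 : 2 * Nat.card G = q * (q ^ 2 - 1)) (hodd : q % 2 = 1)
    (h3 : ¬ 3 ∣ q) (hX : q ^ 2 - 1 ≠ 0) :
    (q ^ 2 - 1).factorization 2 = a + 1 ∧ (q ^ 2 - 1).factorization 3 = b := by
  have hE : 2 ^ (a + 1) * 3 ^ b * H.index = q * (q ^ 2 - 1) := by
    rw [← hG2, ← Subgroup.card_mul_index H, hcard]
    ring
  have hq2 : Nat.Coprime 2 q := (Nat.Prime.coprime_iff_not_dvd Nat.prime_two).mpr (by omega)
  have hq3 : Nat.Coprime 3 q := (Nat.Prime.coprime_iff_not_dvd Nat.prime_three).mpr h3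
  have hI2 : Nat.Coprime 2 H.index := (Nat.Prime.coprime_iff_not_dvd Nat.prime_two).mpr hi2
  have hI3 : Nat.Coprime 3 H.index := (Nat.Prime.coprime_iff_not_dvd Nat.prime_three).mpr hi3
  have h23 : Nat.Coprime 2 3 := by norm_num
  constructor
  · apply le_antisymm
    · have h1 : 2 ^ (q ^ 2 - 1).factorization 2 ∣ 2 ^ (a + 1) * (3 ^ b * H.index) := by
        rw [← mul_assoc, hE]
        exact Dvd.dvd.mul_left (Nat.ordProj_dvd _ _) _
      have hc : Nat.Coprime (2 ^ (q ^ 2 - 1).factorization 2) (3 ^ b * H.index) :=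
        Nat.Coprime.pow_left _ (Nat.Coprime.mul_right (Nat.Coprime.pow_right b h23) hI2)
      exact (Nat.pow_dvd_pow_iff_le_right (by norm_num)).mp (hc.dvd_of_dvd_mul_right h1)
    · have h1 : 2 ^ (a + 1) ∣ q * (q ^ 2 - 1) := by
        rw [← hE]
        exact ⟨3 ^ b * H.index, by ring⟩
      have h2 := (Nat.Coprime.pow_left (a + 1) hq2).dvd_of_dvd_mul_left h1
      exact (Nat.Prime.pow_dvd_iff_le_factorization Nat.prime_two hX).mp h2
  · apply le_antisymm
    · have h1 : 3 ^ (q ^ 2 - 1).factorization 3 ∣ 3 ^ b * (2 ^ (a + 1) * H.index) := by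
        have e : 3 ^ b * (2 ^ (a + 1) * H.index) = q * (q ^ 2 - 1) := by
          rw [← hE]
          ring
        rw [e]
        exact Dvd.dvd.mul_left (Nat.ordProj_dvd _ _) _
      have hc : Nat.Coprime (3 ^ (q ^ 2 - 1).factorization 3) (2 ^ (a + 1) * H.index) :=
        Nat.Coprime.pow_left _ (Nat.Coprime.mul_right (Nat.Coprime.pow_right _ h23.symm) hI3)
      exact (Nat.pow_dvd_pow_iff_le_right (by norm_num)).mp (hc.dvd_of_dvd_mul_right h1)
    · have h1 : 3 ^ b ∣ q * (q ^ 2 - 1) := by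
        rw [← hE]
        exact ⟨2 ^ (a + 1) * H.index, by ring⟩
      have h2 := (Nat.Coprime.pow_left b hq3).dvd_of_dvd_mul_left h1
      exact (Nat.Prime.pow_dvd_iff_le_factorization Nat.prime_three hX).mp h2

open ZMod in
theorem qc_two : quadraticChar (ZMod 3) 2 = -1 := by decide

open ZMod in
theorem qc_neg : quadraticChar (ZMod 3) (-1 * 1) = -1 := by decide

open ZMod in
/-- `3` is not a square in a finite field with `q ≡ 5, 7 (mod 12)` elements -/
theorem not_sq_three {F : Type*} [Field F] [Fintype F] (hc2 : ringChar F ≠ 2)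
    (h : (Fintype.card F % 4 = 1 ∧ Fintype.card F % 3 = 2) ∨
      (Fintype.card F % 4 = 3 ∧ Fintype.card F % 3 = 1)) :
    ¬ ∃ s : F, s * s = 3 := by
  rintro ⟨s, hs⟩
  have hsq : IsSquare ((3 : ℕ) : F) := ⟨s, by rw [hs]; norm_num⟩
  rw [FiniteField.isSquare_odd_prime_iff hc2 (by norm_num)] at hsq
  apply hsq
  rcases h with ⟨h4, h3⟩ | ⟨h4, h3⟩
  · rw [χ₄_nat_one_mod_four h4]
    have e : ((Fintype.card F : ℕ) : ZMod 3) = 2 := by
      have e' : ((Fintype.card F : ℕ) : ZMod 3) = ((2 : ℕ) : ZMod 3) :=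
        (ZMod.natCast_eq_natCast_iff' _ _ _).mpr (by omega)
      rw [e']
      rfl
    simp only [Int.cast_one, one_mul, e]
    exact qc_two
  · rw [χ₄_nat_three_mod_four h4]
    have e : ((Fintype.card F : ℕ) : ZMod 3) = 1 := by
      have e' : ((Fintype.card F : ℕ) : ZMod 3) = ((1 : ℕ) : ZMod 3) :=
        (ZMod.natCast_eq_natCast_iff' _ _ _).mpr (by omega)
      rw [e']
      rfl
    simp only [Int.cast_neg, Int.cast_one, e]
    exact qc_neg

/-! ### the dihedral subgroup -/

variable {F : Type*} [Field F]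

theorem card_center (h2 : (2 : F) ≠ 0) :
    Nat.card (Subgroup.center (Matrix.SpecialLinearGroup (Fin 2) F)) = 2 := by
  have hset : ((Subgroup.center (Matrix.SpecialLinearGroup (Fin 2) F) :
      Subgroup (Matrix.SpecialLinearGroup (Fin 2) F)) :
      Set (Matrix.SpecialLinearGroup (Fin 2) F)) = {1, negOne} := by
    ext g
    constructor
    · intro hg
      rcases center_cases g hg with h | h
      · rw [h]
        exact Set.mem_insert _ _
      · rw [h]
        exact Set.mem_insert_of_mem _ rfl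
    · rintro (h | h)
      · rw [h]
        exact Subgroup.one_mem _
      · rw [h]
        exact negOne_mem_center
  have h1 : Nat.card (Subgroup.center (Matrix.SpecialLinearGroup (Fin 2) F)) =
      ((Subgroup.center (Matrix.SpecialLinearGroup (Fin 2) F) :
      Subgroup (Matrix.SpecialLinearGroup (Fin 2) F)) :
      Set (Matrix.SpecialLinearGroup (Fin 2) F)).ncard := rfl
  rw [h1, hset, Set.ncard_pair (negOne_ne_one h2).symm]

theorem solvable_norm (A : Subgroup (Matrix.SpecialLinearGroup (Fin 2) F)) [IsCyclic A]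
    (hcs : cs ∈ A) :
    Group.IsSolvable (Subgroup.normalizer (A : Set (Matrix.SpecialLinearGroup (Fin 2) F))) := by
  haveI : Group.IsSolvable (MulAut A) :=
    Group.isSolvable_of_isSolvable_injective (f := (IsCyclic.mulAutMulEquiv A).toMonoidHom)
      (MulEquiv.injective _)
  haveI : Group.IsSolvable A.normalizerMonoidHom.ker := by
    apply Group.isSolvable_of_comm
    intro a b
    have ha : (a : Subgroup.normalizer (A : Set (Matrix.SpecialLinearGroup (Fin 2) F))) ∈
        (Subgroup.centralizer (A : Set (Matrix.SpecialLinearGroup (Fin 2) F))).subgroupOf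
          (Subgroup.normalizer (A : Set (Matrix.SpecialLinearGroup (Fin 2) F))) := by
      rw [← Subgroup.normalizerMonoidHom_ker]
      exact a.2
    have hb : (b : Subgroup.normalizer (A : Set (Matrix.SpecialLinearGroup (Fin 2) F))) ∈
        (Subgroup.centralizer (A : Set (Matrix.SpecialLinearGroup (Fin 2) F))).subgroupOf
          (Subgroup.normalizer (A : Set (Matrix.SpecialLinearGroup (Fin 2) F))) := by
      rw [← Subgroup.normalizerMonoidHom_ker]
      exact b.2
    rw [Subgroup.mem_subgroupOf, Subgroup.mem_centralizer_iff] at ha hb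
    have hca := (cent_iff _).mpr (ha cs hcs).symm
    have hcb := (cent_iff _).mpr (hb cs hcs).symm
    apply Subtype.ext
    apply Subtype.ext
    exact cent_comm hca hcb
  exact Group.isSolvable_of_ker_le_range A.normalizerMonoidHom.ker.subtype A.normalizerMonoidHom
    (by rw [Subgroup.range_subtype])

/-- the image in `PSL₂(q)` of the normalizer of a cyclic subgroup of order four: a solvable
subgroup of order `q - ε`, `q ≡ ε (mod 4)` -/
theorem exists_dihedral [Fintype F] (hodd : Fintype.card F % 2 = 1) :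
    ∃ D : Subgroup (Matrix.ProjectiveSpecialLinearGroup (Fin 2) F), Group.IsSolvable D ∧
      2 * Nat.card D + 2 * (roots F).ncard = 2 * (Fintype.card F + 1) := by
  have h2 := two_ne_zero_of_odd hodd
  haveI : Group.IsSolvable (Subgroup.normalizer
      ((Subgroup.zpowers (cs : Matrix.SpecialLinearGroup (Fin 2) F) :
        Subgroup (Matrix.SpecialLinearGroup (Fin 2) F)) :
        Set (Matrix.SpecialLinearGroup (Fin 2) F))) :=
    solvable_norm _ (Subgroup.mem_zpowers cs)
  refine ⟨(Subgroup.normalizer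
      ((Subgroup.zpowers (cs : Matrix.SpecialLinearGroup (Fin 2) F) :
        Subgroup (Matrix.SpecialLinearGroup (Fin 2) F)) :
        Set (Matrix.SpecialLinearGroup (Fin 2) F))).map
      (QuotientGroup.mk' (Subgroup.center (Matrix.SpecialLinearGroup (Fin 2) F))), ?_, ?_⟩
  · exact Group.isSolvable_of_surjective
      (f := (QuotientGroup.mk' (Subgroup.center (Matrix.SpecialLinearGroup (Fin 2) F))).subgroupMap
        _) (MonoidHom.subgroupMap_surjective _ _)
  · have hker : (QuotientGroup.mk' (Subgroup.center (Matrix.SpecialLinearGroup (Fin 2) F))).ker ≤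
        Subgroup.normalizer
      ((Subgroup.zpowers (cs : Matrix.SpecialLinearGroup (Fin 2) F) :
        Subgroup (Matrix.SpecialLinearGroup (Fin 2) F)) :
        Set (Matrix.SpecialLinearGroup (Fin 2) F)) := by
      rw [QuotientGroup.ker_mk']
      exact Subgroup.center_le_normalizer _
    have h1 := Cfsg.Agent.Lib.Lead.Hall.card_comap_mk
      (Subgroup.center (Matrix.SpecialLinearGroup (Fin 2) F))
      ((Subgroup.normalizer
      ((Subgroup.zpowers (cs : Matrix.SpecialLinearGroup (Fin 2) F) :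
        Subgroup (Matrix.SpecialLinearGroup (Fin 2) F)) :
        Set (Matrix.SpecialLinearGroup (Fin 2) F))).map
      (QuotientGroup.mk' (Subgroup.center (Matrix.SpecialLinearGroup (Fin 2) F))))
    rw [Subgroup.comap_map_eq_self hker, card_center h2] at h1
    have h3 := card_normalizer_cs (F := F) hodd
    have h4 := ncard_circle (F := F) h2
    have h5 := h1.symm.trans h3
    have h6 : ∀ x : ℕ, 2 * x = 2 * (circle F).ncard →
        2 * x + 2 * (roots F).ncard = 2 * (Fintype.card F + 1) := by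
      intro x hx
      omega
    exact h6 _ h5

end Cfsg.Agent.Lib.Helper16.Hall23
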