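import Mathlib
import Cfsg.Agent.Lib.Helper16.Max6
import Cfsg.Agent.Lib.Helper2.Subfield2

/-!
# `PGL₂(q)` is maximal in `PSL₂(q²)` (`q ≥ 5` odd)
-/

set_option autoImplicit false

namespace Cfsg.Agent.Lib.Helper16.Max

open Cfsg.Agent.Lib.Helper14.SL2Odd Cfsg.Agent.Lib.Helper14.GL2Conj
open Cfsg.Agent.Lib.Helper16.SL2Four Cfsg.Agent.Lib.Helper16.PSL2A4

variable {F : Type*} [Field F]

theorem two_mem (R : Subfield F) : (2 : F) ∈ R := by
  have h11 : (1 : F) + 1 ∈ R := add_mem (one_mem _) (one_mem _)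
  rwa [one_add_one_eq_two] at h11

theorem span_quad_R [Fintype F] (R : Subfield F) {q : ℕ} (hRcard : Nat.card R = q)
    (hF : Fintype.card F = q ^ 2) (ρ : F) (hρ : ρ ∉ R) (z : F) :
    ∃ f₁ f₂ : F, f₁ ∈ R ∧ f₂ ∈ R ∧ z = f₁ + f₂ * ρ := by
  have hinj : Function.Injective
      (fun u : R × R => (u.1 : F) + (u.2 : F) * ρ) := by
    rintro ⟨a, b⟩ ⟨a', b'⟩ h
    dsimp only at h
    have hb : b = b' := by
      by_contra hne
      apply hρ
      have hne' : (b : F) - (b' : F) ≠ 0 := fun h0 => hne (Subtype.ext (sub_eq_zero.mp h0))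
      have e : ρ = ((a' : F) - (a : F)) / ((b : F) - (b' : F)) := by
        rw [eq_div_iff hne']
        linear_combination h
      rw [e]
      exact Subfield.div_mem _ (sub_mem a'.2 a.2) (sub_mem b.2 b'.2)
    subst hb
    have ha : a = a' := by
      apply Subtype.ext
      linear_combination h
    rw [ha]
  have hcard : Nat.card (R × R) = Nat.card F := by
    rw [Nat.card_prod, hRcard, Nat.card_eq_fintype_card, hF, sq]
  have hbij := (Nat.bijective_iff_injective_and_card _).mpr ⟨hinj, hcard⟩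
  obtain ⟨⟨f₁, f₂⟩, hq⟩ := hbij.2 z
  exact ⟨(f₁ : F), (f₂ : F), f₁.2, f₂.2, hq.symm⟩

theorem exists_w (R : Subfield F) (hq4 : 4 ≤ Nat.card R) (v : F) :
    ∃ w : F, w ∈ R ∧ w ≠ 0 ∧ w ^ 2 * v ≠ 1 := by
  classical
  by_contra hno
  push_neg at hno
  have hv1 : v = 1 := by
    have h1 := hno 1 (one_mem _) one_ne_zero
    rwa [one_pow, one_mul] at h1
  have hsub : ∀ w : R, (w : F) ∈ ({0, 1, -1} : Finset F) := by
    intro w
    by_cases h0 : (w : F) = 0
    · rw [h0]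
      simp
    · have h1 := hno w w.2 h0
      rw [hv1, mul_one] at h1
      have h5 : ((w : F) - 1) * ((w : F) + 1) = 0 := by linear_combination h1
      rcases mul_eq_zero.mp h5 with h | h
      · have h6 : (w : F) = 1 := by linear_combination h
        rw [h6]
        simp
      · have h6 : (w : F) = -1 := by linear_combination h
        rw [h6]
        simp
  have hle : Nat.card R ≤ ({0, 1, -1} : Finset F).card := by
    have hinj : Function.Injective
        (fun w : R => (⟨(w : F), hsub w⟩ : ({0, 1, -1} : Finset F))) := by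
      intro a b hab
      exact Subtype.ext (congrArg (fun z : ({0, 1, -1} : Finset F) => (z : F)) hab)
    have h7 := Nat.card_le_card_of_injective _ hinj
    rwa [Nat.card_eq_finsetCard] at h7
  have h3 : ({0, 1, -1} : Finset F).card ≤ 3 := Finset.card_le_three
  omega

theorem gen_quad_R [Fintype F] (R : Subfield F) {q : ℕ} (hRcard : Nat.card R = q)
    (hF : Fintype.card F = q ^ 2) (hq4 : 4 ≤ q)
    (S : Subgroup (Matrix.SpecialLinearGroup (Fin 2) F)) (t σ : F)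
    (hU : ∀ x : F, x ∈ R → uu (x * t) ∈ S) (hL : ∀ y : F, y ∈ R → ll (y * σ) ∈ S)
    (hlam : t * σ ∉ R) : S = ⊤ := by
  obtain ⟨f₁, s, hf₁, hs, hz⟩ := span_quad_R R hRcard hF (t * σ) hlam ((t * σ) ^ 2)
  obtain ⟨v, hvdef⟩ : ∃ v : F, v = -f₁ := ⟨_, rfl⟩
  have hv : v ∈ R := by
    rw [hvdef]
    exact neg_mem hf₁
  have hq : (t * σ) ^ 2 = s * (t * σ) - v := by
    rw [hvdef]
    linear_combination hz
  have hlam0 : t * σ ≠ 0 := fun h0 => hlam (by rw [h0]; exact zero_mem _)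
  have hσ0 : σ ≠ 0 := fun h0 => hlam0 (by rw [h0, mul_zero])
  have ht0 : t ≠ 0 := fun h0 => hlam0 (by rw [h0, zero_mul])
  have hv0 : v ≠ 0 := by
    intro hv0
    apply hlam
    have h5 : (t * σ) * (t * σ - s) = 0 := by linear_combination hq - hv0
    rcases mul_eq_zero.mp h5 with h | h
    · exact absurd h hlam0
    · have h6 : t * σ = s := by linear_combination h
      rw [h6]
      exact hs
  obtain ⟨w, hw, hw0, hwv⟩ := exists_w R (by rw [hRcard]; exact hq4) v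
  obtain ⟨D, hD⟩ : ∃ D : F, D = w ^ 2 * v + w * s + 1 := ⟨_, rfl⟩
  have hDm : D ∈ R := by
    rw [hD]
    exact add_mem (add_mem (mul_mem (pow_mem hw 2) hv) (mul_mem hw hs)) (one_mem _)
  have hD0 : D ≠ 0 := by
    intro h0
    apply hlam
    obtain ⟨r, hr⟩ : ∃ r : F, r * w = -1 := ⟨-1 / w, div_mul_cancel₀ _ hw0⟩
    have hrm : r ∈ R := by
      have e : r = -1 / w := by
        rw [eq_div_iff hw0]
        exact hr
      rw [e]
      exact Subfield.div_mem _ (neg_mem (one_mem _)) hw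
    have hroot : r ^ 2 - s * r + v = 0 := by
      apply mul_left_cancel₀ (pow_ne_zero 2 hw0)
      linear_combination (r * w - 1 - s * w) * hr - hD + h0
    have h5 : (t * σ - r) * (t * σ + r - s) = 0 := by linear_combination hq - hroot
    rcases mul_eq_zero.mp h5 with h | h
    · have h6 : t * σ = r := by linear_combination h
      rw [h6]
      exact hrm
    · have h6 : t * σ = s - r := by linear_combination h
      rw [h6]
      exact sub_mem hs hrm
  obtain ⟨c, hc⟩ : ∃ c : F, c * D = -1 := ⟨-1 / D, div_mul_cancel₀ _ hD0⟩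
  have hcm : c ∈ R := by
    have e : c = -1 / D := by
      rw [eq_div_iff hD0]
      exact hc
    rw [e]
    exact Subfield.div_mem _ (neg_mem (one_mem _)) hDm
  have hwv0 : w * v ≠ 0 := mul_ne_zero hw0 hv0
  obtain ⟨f, hf⟩ : ∃ f : F, f * (w * v) = -D := ⟨-D / (w * v), div_mul_cancel₀ _ hwv0⟩
  have hfm : f ∈ R := by
    have e : f = -D / (w * v) := by
      rw [eq_div_iff hwv0]
      exact hf
    rw [e]
    exact Subfield.div_mem _ (neg_mem hDm) (mul_mem hw hv)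
  obtain ⟨G₀, hG₀⟩ : ∃ G₀ : Matrix.SpecialLinearGroup (Fin 2) F,
      G₀ = ll (f * σ) * uu (c * t) * ll (w * σ) * uu (1 * t) := ⟨_, rfl⟩
  have hG₀S : G₀ ∈ S := by
    rw [hG₀]
    exact S.mul_mem (S.mul_mem (S.mul_mem (hL f hfm) (hU c hcm)) (hL w hw)) (hU 1 (one_mem _))
  have hGm : (G₀ : Matrix (Fin 2) (Fin 2) F) =
      !![1 + c * t * (w * σ), t * (1 + c * (1 + w * (t * σ)));
        f * σ + (f * σ * (c * t) + 1) * (w * σ),
        (f * σ + (f * σ * (c * t) + 1) * (w * σ)) * t + f * σ * (c * t) + 1] := by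
    rw [hG₀]
    simp only [Matrix.SpecialLinearGroup.coe_mul, ll_coe, uu_coe, Matrix.mul_fin_two]
    exact mat_eq (by ring) (by ring) (by ring) (by ring)
  have h11 : (G₀ : Matrix (Fin 2) (Fin 2) F) 1 1 = 0 := by
    rw [hGm, mat_apply11]
    apply mul_left_cancel₀ hwv0
    linear_combination (w * v * f * c * w) * hq +
      (-(w * v * c) + (t * σ) * (1 + c + c * w * s)) * hf +
      (w * v - (t * σ) * (1 + w * s)) * hc - (t * σ) * hD
  obtain ⟨β, hβdef⟩ : ∃ β : F, β = 1 + c * (1 + w * (t * σ)) := ⟨_, rfl⟩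
  have h01 : (G₀ : Matrix (Fin 2) (Fin 2) F) 0 1 = t * β := by
    rw [hGm, mat_apply01, hβdef]
  have hρ : -((t * σ) * β ^ 2) ∉ R := by
    intro hmem
    apply hlam
    have hβ : D * β = w * (w * v + s - t * σ) := by
      rw [hβdef]
      linear_combination hD + (1 + w * (t * σ)) * hc
    have key : D ^ 2 * (-((t * σ) * β ^ 2)) =
        -(w ^ 2 * (v * (w ^ 2 * v - 1) * (t * σ) + v * (2 * w * v + s))) := by
      linear_combination (-((t * σ) * (D * β + w * (w * v + s - t * σ)))) * hβ -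
        w ^ 2 * ((t * σ) - (s + 2 * w * v)) * hq
    have hA0 : w ^ 2 * v * (w ^ 2 * v - 1) ≠ 0 :=
      mul_ne_zero (mul_ne_zero (pow_ne_zero 2 hw0) hv0) (sub_ne_zero.mpr hwv)
    have e : t * σ = (-(D ^ 2 * (-((t * σ) * β ^ 2))) - w ^ 2 * v * (2 * w * v + s)) /
        (w ^ 2 * v * (w ^ 2 * v - 1)) := by
      rw [eq_div_iff hA0]
      linear_combination key
    rw [e]
    exact Subfield.div_mem _
      (sub_mem (neg_mem (mul_mem (pow_mem hDm 2) hmem))
        (mul_mem (mul_mem (pow_mem hw 2) hv)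
          (add_mem (mul_mem (mul_mem (two_mem R) hw) hv) hs)))
      (mul_mem (mul_mem (pow_mem hw 2) hv) (sub_mem (mul_mem (pow_mem hw 2) hv) (one_mem _)))
  have hT : ∀ y : F, y ∈ R → uu (t * (y * (-((t * σ) * β ^ 2)))) ∈ S := by
    intro y hy
    have h5 := conj_ll G₀ h11 (y * σ)
    rw [h01] at h5
    have e : t * (y * (-((t * σ) * β ^ 2))) = -((t * β) ^ 2 * (y * σ)) := by ring
    rw [e, ← h5]
    exact S.mul_mem (S.mul_mem hG₀S (hL y hy)) (S.inv_mem hG₀S)
  have hall : ∀ z : F, uu z ∈ S := by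
    intro z
    obtain ⟨f₁, f₂, hf₁, hf₂, hz⟩ := span_quad_R R hRcard hF _ hρ (z / t)
    have h5 : t * (z / t) = z := by
      rw [mul_div_assoc']
      exact mul_div_cancel_left₀ z ht0
    have e : z = f₁ * t + t * (f₂ * (-((t * σ) * β ^ 2))) := by
      calc z = t * (z / t) := h5.symm
        _ = f₁ * t + t * (f₂ * (-((t * σ) * β ^ 2))) := by rw [hz]; ring
    rw [e, ← uu_mul]
    exact S.mul_mem (hU f₁ hf₁) (hT f₂ hf₂)
  refine gen_top' S hall (ll (1 * σ)) (hL 1 (one_mem _)) ?_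
  rw [ll_coe, mat_apply10, one_mul]
  exact hσ0


theorem star_R [Fintype F] (R : Subfield F) {q : ℕ} (hRcard : Nat.card R = q)
    (hF : Fintype.card F = q ^ 2) (hq4 : 4 ≤ q)
    (S : Subgroup (Matrix.SpecialLinearGroup (Fin 2) F))
    (hU : ∀ x : F, x ∈ R → uu x ∈ S) (hS : S ≠ ⊤)
    (g : Matrix.SpecialLinearGroup (Fin 2) F) (hg : g ∈ S) (a b c d : F)
    (hgm : (g : Matrix (Fin 2) (Fin 2) F) = !![a, b; c, d]) : c ^ 2 ∈ R := by
  have hdet : a * d - b * c = 1 := by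
    have h := g.2
    rw [hgm, Matrix.det_fin_two_of] at h
    exact h
  by_cases hc : c = 0
  · rw [hc, zero_pow two_ne_zero]
    exact zero_mem _
  by_contra hnot
  apply hS
  obtain ⟨ω, hω⟩ : ∃ ω : F, ω * c = a := ⟨a / c, div_mul_cancel₀ _ hc⟩
  obtain ⟨S', hS'⟩ : ∃ S' : Subgroup (Matrix.SpecialLinearGroup (Fin 2) F),
      ∀ k, k ∈ S' ↔ uu ω * k * (uu ω)⁻¹ ∈ S :=
    ⟨S.comap (MulAut.conj (uu ω)).toMonoidHom, fun k => Iff.rfl⟩
  have hU' : ∀ x : F, x ∈ R → uu (x * 1) ∈ S' := by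
    intro x hx
    rw [hS', mul_one]
    have e : uu ω * uu x * (uu ω)⁻¹ = uu x := by
      rw [uu_inv, uu_mul, uu_mul]
      congr 1
      ring
    rw [e]
    exact hU x hx
  have hL' : ∀ y : F, y ∈ R → ll (y * (-(c ^ 2))) ∈ S' := by
    intro y hy
    have e : y * (-(c ^ 2)) = -(c ^ 2 * y) := by ring
    rw [hS', e, conj_uu g a b c d hgm hdet ω hω y]
    exact S.mul_mem (S.mul_mem hg (hU y hy)) (S.inv_mem hg)
  have hlam : (1 : F) * (-(c ^ 2)) ∉ R := by
    intro hmem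
    apply hnot
    have e : c ^ 2 = -((1 : F) * (-(c ^ 2))) := by ring
    rw [e]
    exact neg_mem hmem
  have htop := gen_quad_R R hRcard hF hq4 S' 1 (-(c ^ 2)) hU' hL' hlam
  rw [eq_top_iff]
  intro k _
  have h5 : (uu ω)⁻¹ * k * uu ω ∈ S' := by
    rw [htop]
    exact Subgroup.mem_top _
  rw [hS'] at h5
  have e : uu ω * ((uu ω)⁻¹ * k * uu ω) * (uu ω)⁻¹ = k := by group
  rw [e] at h5
  exact h5

theorem col1 [Fintype F] (R : Subfield F) {q : ℕ} (hRcard : Nat.card R = q)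
    (hF : Fintype.card F = q ^ 2) (hq4 : 4 ≤ q) (h2 : (2 : F) ≠ 0)
    (S : Subgroup (Matrix.SpecialLinearGroup (Fin 2) F))
    (hU : ∀ x : F, x ∈ R → uu x ∈ S) (hLl : ∀ y : F, y ∈ R → ll y ∈ S) (hS : S ≠ ⊤)
    (g : Matrix.SpecialLinearGroup (Fin 2) F) (hg : g ∈ S) (a b c d : F)
    (hgm : (g : Matrix (Fin 2) (Fin 2) F) = !![a, b; c, d]) :
    a ^ 2 ∈ R ∧ c ^ 2 ∈ R ∧ a * c ∈ R := by
  have h2m := two_mem R
  have k0 := star_R R hRcard hF hq4 S hU hS g hg a b c d hgm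
  have hm1 : ((ll 1 * g : Matrix.SpecialLinearGroup (Fin 2) F) : Matrix (Fin 2) (Fin 2) F) =
      !![a, b; a + c, b + d] := by
    rw [Matrix.SpecialLinearGroup.coe_mul, ll_coe, hgm, Matrix.mul_fin_two]
    exact mat_eq (by ring) (by ring) (by ring) (by ring)
  have hm2 : ((ll (-1) * g : Matrix.SpecialLinearGroup (Fin 2) F) :
      Matrix (Fin 2) (Fin 2) F) = !![a, b; c - a, d - b] := by
    rw [Matrix.SpecialLinearGroup.coe_mul, ll_coe, hgm, Matrix.mul_fin_two]
    exact mat_eq (by ring) (by ring) (by ring) (by ring)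
  have k1 := star_R R hRcard hF hq4 S hU hS (ll 1 * g) (S.mul_mem (hLl 1 (one_mem _)) hg)
    a b (a + c) (b + d) hm1
  have k2 := star_R R hRcard hF hq4 S hU hS (ll (-1) * g)
    (S.mul_mem (hLl (-1) (neg_mem (one_mem _))) hg) a b (c - a) (d - b) hm2
  refine ⟨?_, k0, ?_⟩
  · have e : a ^ 2 = ((a + c) ^ 2 + (c - a) ^ 2 - 2 * c ^ 2) / 2 := by
      rw [eq_div_iff h2]
      ring
    rw [e]
    exact Subfield.div_mem R (sub_mem (add_mem k1 k2) (mul_mem h2m k0)) h2m
  · have e : a * c = ((a + c) ^ 2 - (c - a) ^ 2) / (2 * 2) := by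
      rw [eq_div_iff (mul_ne_zero h2 h2)]
      ring
    rw [e]
    exact Subfield.div_mem R (sub_mem k1 k2) (mul_mem h2m h2m)

theorem scal [Fintype F] (R : Subfield F) {q : ℕ} (hRcard : Nat.card R = q)
    (hF : Fintype.card F = q ^ 2) (hq4 : 4 ≤ q) (h2 : (2 : F) ≠ 0)
    (S : Subgroup (Matrix.SpecialLinearGroup (Fin 2) F))
    (hU : ∀ x : F, x ∈ R → uu x ∈ S) (hLl : ∀ y : F, y ∈ R → ll y ∈ S) (hS : S ≠ ⊤)
    (g : Matrix.SpecialLinearGroup (Fin 2) F) (hg : g ∈ S) (a b c d : F)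
    (hgm : (g : Matrix (Fin 2) (Fin 2) F) = !![a, b; c, d]) (hdet : a * d - b * c = 1) :
    ∃ e : F, e ≠ 0 ∧ e * a ∈ R ∧ e * b ∈ R ∧ e * c ∈ R ∧ e * d ∈ R := by
  have h2m := two_mem R
  obtain ⟨A1, C1, AC⟩ := col1 R hRcard hF hq4 h2 S hU hLl hS g hg a b c d hgm
  have hm1 : ((g * ll 1 : Matrix.SpecialLinearGroup (Fin 2) F) : Matrix (Fin 2) (Fin 2) F) =
      !![a + b, b; c + d, d] := by
    rw [Matrix.SpecialLinearGroup.coe_mul, ll_coe, hgm, Matrix.mul_fin_two]
    exact mat_eq (by ring) (by ring) (by ring) (by ring)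
  have hm2 : ((g * ll (-1) : Matrix.SpecialLinearGroup (Fin 2) F) :
      Matrix (Fin 2) (Fin 2) F) = !![a - b, b; c - d, d] := by
    rw [Matrix.SpecialLinearGroup.coe_mul, ll_coe, hgm, Matrix.mul_fin_two]
    exact mat_eq (by ring) (by ring) (by ring) (by ring)
  obtain ⟨P1, Q1, PQ1⟩ := col1 R hRcard hF hq4 h2 S hU hLl hS (g * ll 1)
    (S.mul_mem hg (hLl 1 (one_mem _))) (a + b) b (c + d) d hm1
  obtain ⟨P2, Q2, PQ2⟩ := col1 R hRcard hF hq4 h2 S hU hLl hS (g * ll (-1))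
    (S.mul_mem hg (hLl (-1) (neg_mem (one_mem _)))) (a - b) b (c - d) d hm2
  have h4 : (2 : F) * 2 ≠ 0 := mul_ne_zero h2 h2
  have h4m : (2 : F) * 2 ∈ R := mul_mem h2m h2m
  by_cases ha : a = 0
  · have hb : b ≠ 0 := by
      intro hb
      rw [ha, hb] at hdet
      simp at hdet
    refine ⟨b, hb, ?_, ?_, ?_, ?_⟩
    · rw [ha, mul_zero]
      exact zero_mem _
    · have e : b * b = ((a + b) ^ 2 + (a - b) ^ 2) / 2 - a ^ 2 := by
        rw [eq_sub_iff_add_eq, eq_div_iff h2]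
        ring
      rw [e]
      exact sub_mem (Subfield.div_mem R (add_mem P1 P2) h2m) A1
    · have e : b * c = -1 := by
        rw [ha] at hdet
        linear_combination (-1 : F) * hdet
      rw [e]
      exact neg_mem (one_mem _)
    · have e : b * d = ((a + b) * (c + d) + (a - b) * (c - d)) / 2 - a * c := by
        rw [eq_sub_iff_add_eq, eq_div_iff h2]
        ring
      rw [e]
      exact sub_mem (Subfield.div_mem R (add_mem PQ1 PQ2) h2m) AC
  · refine ⟨a, ha, ?_, ?_, AC, ?_⟩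
    · have e : a * a = a ^ 2 := by ring
      rw [e]
      exact A1
    · have e : a * b = ((a + b) ^ 2 - (a - b) ^ 2) / (2 * 2) := by
        rw [eq_div_iff h4]
        ring
      rw [e]
      exact Subfield.div_mem R (sub_mem P1 P2) h4m
    · have e : a * d = ((a + b) * (c + d) - (a - b) * (c - d) + 2) / (2 * 2) := by
        rw [eq_div_iff h4]
        linear_combination 2 * hdet
      rw [e]
      exact Subfield.div_mem R (add_mem (sub_mem PQ1 PQ2) h2m) h4m

theorem map_lit {K : Type*} [Field K] (φ : K →+* F) (p q r s : K) :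
    (!![p, q; r, s] : Matrix (Fin 2) (Fin 2) K).map φ = !![φ p, φ q; φ r, φ s] := by
  ext i j
  fin_cases i <;> fin_cases j <;> rfl

theorem smul_lit (k p q r s : F) :
    k • (!![p, q; r, s] : Matrix (Fin 2) (Fin 2) F) = !![k * p, k * q; k * r, k * s] := by
  ext i j
  fin_cases i <;> fin_cases j <;> rfl

theorem mem_H {K : Type*} [Field K] (φ : K →+* F) (hsq : ∀ x : K, ∃ s : F, s * s = φ x)
    (A : Matrix.SpecialLinearGroup (Fin 2) F) (M₀ : Matrix (Fin 2) (Fin 2) K)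
    (hdet : M₀.det ≠ 0) (e : F) (h : (A : Matrix (Fin 2) (Fin 2) F) = e • M₀.map φ) :
    (A : Matrix.ProjectiveSpecialLinearGroup (Fin 2) F) ∈
      (Cfsg.Agent.Lib.Helper2.Subfield2.pglMap φ hsq).range := by
  obtain ⟨G₀, hG₀⟩ : ∃ G₀ : Matrix.GeneralLinearGroup (Fin 2) K, G₀.1 = M₀ :=
    ⟨Matrix.GeneralLinearGroup.mkOfDetNeZero M₀ hdet, rfl⟩
  have hd0 : G₀.1.det ≠ 0 := Matrix.GeneralLinearGroup.det_ne_zero G₀
  refine ⟨Matrix.ProjGenLinGroup.mk G₀, ?_⟩
  have h1 : Cfsg.Agent.Lib.Helper2.Subfield2.pglMap φ hsq (Matrix.ProjGenLinGroup.mk G₀) =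
      QuotientGroup.mk (Cfsg.Agent.Lib.Helper2.Subfield2.nrm φ hsq G₀) := rfl
  rw [h1]
  symm
  apply Cfsg.Agent.Lib.Helper2.Subfield2.mk_eq_of_smul A _
    (e * Cfsg.Agent.Lib.Helper2.Subfield2.rt φ hsq G₀.1.det)
  rw [Cfsg.Agent.Lib.Helper2.Subfield2.nrm_val, smul_smul, mul_assoc,
    mul_inv_cancel₀ (Cfsg.Agent.Lib.Helper2.Subfield2.rt_ne φ hsq _ hd0), mul_one, hG₀]
  exact h

/-- a subgroup of `PSL₂(q²)` properly containing the image of `PGL₂(q)` is everything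
(`q ≥ 4`, odd characteristic) -/
theorem max_pgl {K : Type*} [Field K] [Fintype K] [Fintype F] (φ : K →+* F)
    (hsq : ∀ x : K, ∃ s : F, s * s = φ x) {q : ℕ}
    (hK : Fintype.card K = q) (hF : Fintype.card F = q ^ 2) (hq4 : 4 ≤ q) (h2 : (2 : F) ≠ 0)
    (K' : Subgroup (Matrix.ProjectiveSpecialLinearGroup (Fin 2) F))
    (hle : (Cfsg.Agent.Lib.Helper2.Subfield2.pglMap φ hsq).range ≤ K')
    (hne : ¬ K' ≤ (Cfsg.Agent.Lib.Helper2.Subfield2.pglMap φ hsq).range) : K' = ⊤ := by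
  have hRcard : Nat.card φ.fieldRange = q := by
    rw [← hK, ← Nat.card_eq_fintype_card]
    exact (Nat.card_eq_of_bijective _ (RingHom.rangeRestrictField_bijective φ)).symm
  obtain ⟨S, hS⟩ : ∃ S : Subgroup (Matrix.SpecialLinearGroup (Fin 2) F),
      ∀ g : Matrix.SpecialLinearGroup (Fin 2) F, g ∈ S ↔
        (g : Matrix.ProjectiveSpecialLinearGroup (Fin 2) F) ∈ K' :=
    ⟨K'.comap (QuotientGroup.mk' (Subgroup.center (Matrix.SpecialLinearGroup (Fin 2) F))),
      fun g => Iff.rfl⟩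
  have hU : ∀ x : F, x ∈ φ.fieldRange → uu x ∈ S := by
    intro x hx
    obtain ⟨y, rfl⟩ := RingHom.mem_fieldRange.mp hx
    rw [hS]
    apply hle
    apply mem_H φ hsq (uu (φ y)) !![1, y; 0, 1] (by rw [Matrix.det_fin_two_of]; simp) 1
    rw [one_smul, uu_coe, map_lit, map_one, map_zero]
  have hLl : ∀ x : F, x ∈ φ.fieldRange → ll x ∈ S := by
    intro x hx
    obtain ⟨y, rfl⟩ := RingHom.mem_fieldRange.mp hx
    rw [hS]
    apply hle
    apply mem_H φ hsq (ll (φ y)) !![1, 0; y, 1] (by rw [Matrix.det_fin_two_of]; simp) 1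
    rw [one_smul, ll_coe, map_lit, map_one, map_zero]
  by_contra hKtop
  have hStop : S ≠ ⊤ := by
    intro h
    apply hKtop
    rw [eq_top_iff]
    intro k _
    obtain ⟨g, rfl⟩ := QuotientGroup.mk_surjective k
    rw [← hS, h]
    exact Subgroup.mem_top _
  apply hne
  intro k hk
  obtain ⟨g, rfl⟩ := QuotientGroup.mk_surjective k
  have hgS : g ∈ S := (hS g).mpr hk
  obtain ⟨a, b, c, d, hgm, hdet⟩ := sl_form g
  obtain ⟨e, he, hea, heb, hec, hed⟩ :=
    scal φ.fieldRange hRcard hF hq4 h2 S hU hLl hStop g hgS a b c d hgm hdet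
  obtain ⟨a₀, ha₀⟩ := RingHom.mem_fieldRange.mp hea
  obtain ⟨b₀, hb₀⟩ := RingHom.mem_fieldRange.mp heb
  obtain ⟨c₀, hc₀⟩ := RingHom.mem_fieldRange.mp hec
  obtain ⟨d₀, hd₀⟩ := RingHom.mem_fieldRange.mp hed
  have hdet₀ : (!![a₀, b₀; c₀, d₀] : Matrix (Fin 2) (Fin 2) K).det ≠ 0 := by
    rw [Matrix.det_fin_two_of]
    intro h0
    have h5 : φ (a₀ * d₀ - b₀ * c₀) = 0 := by rw [h0, map_zero]
    rw [map_sub, map_mul, map_mul, ha₀, hb₀, hc₀, hd₀] at h5
    have h6 : e ^ 2 = 0 := by linear_combination h5 - e ^ 2 * hdet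
    exact he ((pow_eq_zero_iff two_ne_zero).mp h6)
  apply mem_H φ hsq g !![a₀, b₀; c₀, d₀] hdet₀ e⁻¹
  rw [hgm, map_lit, ha₀, hb₀, hc₀, hd₀, smul_lit]
  exact mat_eq (inv_mul_cancel_left₀ he a).symm (inv_mul_cancel_left₀ he b).symm
    (inv_mul_cancel_left₀ he c).symm (inv_mul_cancel_left₀ he d).symm

/-- in a simple group of order more than `n!` a subgroup of index at most `n` is everything -/
theorem top_of_index_le {G : Type*} [Group G] [Finite G] [IsSimpleGroup G]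
    (K : Subgroup G) (n : ℕ) (hidx : K.index ≤ n) (hcard : n.factorial < Nat.card G) :
    K = ⊤ := by
  by_contra hK
  have hker : (MulAction.toPermHom G (G ⧸ K)).ker = ⊥ := by
    rcases (MonoidHom.normal_ker (MulAction.toPermHom G (G ⧸ K))).eq_bot_or_eq_top with h | h
    · exact h
    · exfalso
      apply hK
      rw [eq_top_iff]
      intro g _
      have hg : g ∈ (MulAction.toPermHom G (G ⧸ K)).ker := by
        rw [h]
        exact Subgroup.mem_top _
      have h1 : MulAction.toPermHom G (G ⧸ K) g = 1 := hg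
      have h2 : g • ((1 : G) : G ⧸ K) = ((1 : G) : G ⧸ K) :=
        congrArg (fun f : Equiv.Perm (G ⧸ K) => f ((1 : G) : G ⧸ K)) h1
      have h3 : ((g * 1 : G) : G ⧸ K) = ((1 : G) : G ⧸ K) := h2
      rw [mul_one] at h3
      have h4 := QuotientGroup.eq.mp h3
      rw [mul_one] at h4
      exact inv_mem_iff.mp h4
  have hinj : Function.Injective (MulAction.toPermHom G (G ⧸ K)) :=
    (MonoidHom.ker_eq_bot_iff _).mp hker
  have h5 : Nat.card G ≤ Nat.card (Equiv.Perm (G ⧸ K)) := Nat.card_le_card_of_injective _ hinj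
  rw [Nat.card_perm] at h5
  have h6 : Nat.card (G ⧸ K) = K.index := rfl
  rw [h6] at h5
  have h7 : (K.index).factorial ≤ n.factorial := Nat.factorial_le hidx
  omega

end Cfsg.Agent.Lib.Helper16.Max
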