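import Mathlib
import Cfsg.Agent.Lib.Helper16.KleinPairs
import Cfsg.Agent.S1012

/-!
# Producing a copy of the symmetric group of degree four from three elements

* `s4_of_elements`: the `A₄` data `i`, `u` of `a4_of_elements` together with an element `s`
  with `s² = i`, `s (u i u⁻¹) s⁻¹ = i (u i u⁻¹)` and `s u s⁻¹ = i u⁻¹` give a subgroup
  isomorphic to `S₄`.
-/

set_option autoImplicit false

namespace Cfsg.Agent.Lib.Helper16.S4Elts

open Cfsg.Agent.Lib.Helper16.KleinPairs
open scoped Pointwise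

theorem mem_normalizer_of_conj_mem {G : Type*} [Group G] (V : Subgroup G) [Finite V] (x : G)
    (h : ∀ v ∈ V, x * v * x⁻¹ ∈ V) : x ∈ Subgroup.normalizer (V : Set G) := by
  rw [Subgroup.mem_normalizer_iff]
  intro w
  refine ⟨h w, fun hw => ?_⟩
  let f : V → V := fun v => ⟨x * v * x⁻¹, h v v.2⟩
  have hinj : Function.Injective f := by
    intro a b hab
    have := congrArg Subtype.val hab
    exact Subtype.ext (mul_left_cancel (mul_right_cancel this))
  obtain ⟨v, hv⟩ := (Finite.injective_iff_surjective.mp hinj) ⟨x * w * x⁻¹, hw⟩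
  have := congrArg Subtype.val hv
  have e : (v : G) = w := mul_left_cancel (mul_right_cancel this)
  rw [← e]
  exact v.2

theorem zpowers_cube {G : Type*} [Group G] (u : G) (hu3 : u * u * u = 1) :
    ∀ y ∈ Subgroup.zpowers u, y = 1 ∨ y = u ∨ y = u * u := by
  intro y hy
  obtain ⟨k, hk⟩ := Subgroup.mem_zpowers_iff.mp hy
  have hu3' : u ^ (3 : ℤ) = 1 := by
    rw [show (3 : ℤ) = ((3 : ℕ) : ℤ) from rfl, zpow_natCast, pow_succ, pow_two]
    exact hu3
  have e : u ^ k = u ^ (k % 3) := by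
    conv_lhs => rw [← Int.emod_add_mul_ediv k 3]
    rw [zpow_add, zpow_mul, hu3', one_zpow, mul_one]
  have h0 : 0 ≤ k % 3 := Int.emod_nonneg k (by norm_num)
  have h3 : k % 3 < 3 := Int.emod_lt_of_pos k (by norm_num)
  rw [← hk, e]
  obtain h | h | h : k % 3 = 0 ∨ k % 3 = 1 ∨ k % 3 = 2 := by omega
  · left
    rw [h, zpow_zero]
  · right; left
    rw [h, zpow_one]
  · right; right
    rw [h, show (2 : ℤ) = ((2 : ℕ) : ℤ) from rfl, zpow_natCast, pow_two]

theorem s4_of_elements {G : Type*} [Group G] [Finite G] (i u s : G) (hi1 : i ≠ 1)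
    (hi2 : i * i = 1) (hc : i * (u * i * u⁻¹) = (u * i * u⁻¹) * i) (hu3 : u * u * u = 1)
    (hj : u * (u * i * u⁻¹) * u⁻¹ = i * (u * i * u⁻¹))
    (hs2 : s * s = i) (hsj : s * (u * i * u⁻¹) * s⁻¹ = i * (u * i * u⁻¹))
    (hsu : s * u * s⁻¹ = i * u⁻¹) :
    ∃ H : Subgroup G, Nonempty (H ≃* Equiv.Perm (Fin 4)) := by
  obtain ⟨j, hjdef⟩ : ∃ j, j = u * i * u⁻¹ := ⟨_, rfl⟩
  rw [← hjdef] at hc hj hsj
  have hj2 : j * j = 1 := by
    rw [hjdef]
    calc u * i * u⁻¹ * (u * i * u⁻¹) = u * (i * i) * u⁻¹ := by group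
      _ = 1 := by rw [hi2]; group
  have hj1 : j ≠ 1 := by
    intro h
    apply hi1
    rw [hjdef] at h
    have e : i = u⁻¹ * (u * i * u⁻¹) * u := by group
    rw [e, h]
    group
  have hij : i ≠ j := by
    intro h
    apply hj1
    rw [← h] at hj
    rw [hjdef, hj, hi2]
  have hconj_ij : u * (i * j) * u⁻¹ = i := by
    calc u * (i * j) * u⁻¹ = (u * i * u⁻¹) * (u * j * u⁻¹) := by group
      _ = j * (i * j) := by rw [← hjdef, hj]
      _ = i * (j * j) := by rw [← mul_assoc, ← hc, mul_assoc]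
      _ = i := by rw [hj2, mul_one]
  -- the four-group
  obtain ⟨V, hVdef⟩ : ∃ V : Subgroup G, V = fourGroup i j hi2 hj2 hc := ⟨_, rfl⟩
  have hVmem : ∀ g, g ∈ V ↔ g = 1 ∨ g = i ∨ g = j ∨ g = i * j := by
    intro g
    rw [hVdef]
    exact mem_fourGroup i j hi2 hj2 hc g
  have hV4 : Nat.card V = 4 := by
    rw [hVdef]
    exact card_fourGroup i j hi2 hj2 hc hi1 hj1 hij
  have hiV : i ∈ V := (hVmem i).mpr (Or.inr (Or.inl rfl))
  have hjV : j ∈ V := (hVmem j).mpr (Or.inr (Or.inr (Or.inl rfl)))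
  have hijV : i * j ∈ V := (hVmem _).mpr (Or.inr (Or.inr (Or.inr rfl)))
  haveI : Fact (Nat.Prime 2) := ⟨Nat.prime_two⟩
  have hVcomm : ∀ v ∈ V, ∀ w ∈ V, v * w = w * v := by
    intro v hv w hw
    have h := IsPGroup.commutative_of_card_eq_prime_sq (p := 2) (G := ↥V) (by rw [hV4]; norm_num)
      ⟨v, hv⟩ ⟨w, hw⟩
    exact congrArg Subtype.val h
  have hVsq : ∀ v ∈ V, v * v = 1 := by
    intro v hv
    rcases (hVmem v).mp hv with h | h | h | h
    · rw [h, mul_one]
    · rw [h, hi2]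
    · rw [h, hj2]
    · rw [h]
      calc i * j * (i * j) = i * (j * i) * j := by group
        _ = i * (i * j) * j := by rw [← hc]
        _ = (i * i) * (j * j) := by group
        _ = 1 := by rw [hi2, hj2, mul_one]
  have hnorm : ∀ v ∈ V, u * v * u⁻¹ ∈ V := by
    intro v hv
    rcases (hVmem v).mp hv with h | h | h | h
    · rw [h, mul_one, mul_inv_cancel]
      exact one_mem _
    · rw [h, ← hjdef]
      exact hjV
    · rw [h, hj]
      exact hijV
    · rw [h, hconj_ij]
      exact hiV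
  have hfix : ∀ v ∈ V, u * v * u⁻¹ = v → v = 1 := by
    intro v hv hfv
    rcases (hVmem v).mp hv with h | h | h | h
    · exact h
    · exfalso
      rw [h, ← hjdef] at hfv
      exact hij hfv.symm
    · exfalso
      rw [h, hj] at hfv
      exact hi1 (mul_eq_right.mp hfv)
    · exfalso
      rw [h, hconj_ij] at hfv
      exact hj1 (left_eq_mul.mp hfv)
  have hfix2 : ∀ v ∈ V, (u * u) * v * (u * u)⁻¹ = v → v = 1 := by
    intro v hv hfv
    apply hfix v hv
    calc u * v * u⁻¹ = u * ((u * u) * v * (u * u)⁻¹) * u⁻¹ := by rw [hfv]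
      _ = (u * u * u) * v * (u * u * u)⁻¹ := by group
      _ = v := by rw [hu3]; group
  have hu1 : u ≠ 1 := by
    intro h
    apply hij
    rw [hjdef, h]
    group
  haveI : Fact (Nat.Prime 3) := ⟨by norm_num⟩
  have hu3' : u ^ 3 = 1 := by
    rw [pow_succ, pow_two]
    exact hu3
  have horder : orderOf u = 3 := orderOf_eq_prime hu3' hu1
  have hZ3 : Nat.card (Subgroup.zpowers u) = 3 := by
    rw [Nat.card_zpowers, horder]
  have hZelts := zpowers_cube u hu3
  have huV : u ∉ V := by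
    intro h
    have h1 := hVsq u h
    rw [h1, one_mul] at hu3
    exact hu1 hu3
  have huuV : u * u ∉ V := by
    intro h
    have h1 := hVsq _ h
    have e : u * u * (u * u) = (u * u * u) * u := by group
    rw [e, hu3, one_mul] at h1
    exact hu1 h1
  have hZnorm : Subgroup.zpowers u ≤ Subgroup.normalizer (V : Set G) := by
    rw [Subgroup.zpowers_le]
    exact mem_normalizer_of_conj_mem V u hnorm
  have hZconj : ∀ y ∈ Subgroup.zpowers u, ∀ v ∈ V, y * v * y⁻¹ ∈ V := by
    intro y hy v hv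
    exact (Subgroup.mem_normalizer_iff.mp (hZnorm hy) v).mp hv
  -- the subgroup `K` of order twelve
  obtain ⟨K, hKdef⟩ : ∃ K : Subgroup G, K = V ⊔ Subgroup.zpowers u := ⟨_, rfl⟩
  have hVK : V ≤ K := by rw [hKdef]; exact le_sup_left
  have hZK : Subgroup.zpowers u ≤ K := by rw [hKdef]; exact le_sup_right
  have huK : u ∈ K := hZK (Subgroup.mem_zpowers u)
  have hcoeK : (K : Set G) = (V : Set G) * ((Subgroup.zpowers u : Subgroup G) : Set G) := by
    rw [hKdef]
    exact Subgroup.coe_mul_of_right_le_normalizer_left _ _ hZnorm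
  have hKelts : ∀ x ∈ K, ∃ v ∈ V, ∃ y ∈ Subgroup.zpowers u, x = v * y := by
    intro x hx
    have hx' : x ∈ (V : Set G) * ((Subgroup.zpowers u : Subgroup G) : Set G) := by
      rw [← hcoeK]
      exact hx
    obtain ⟨v, hv, y, hy, hvy⟩ := Set.mem_mul.mp hx'
    exact ⟨v, hv, y, hy, hvy.symm⟩
  have hK12 : Nat.card K = 12 := by
    have h4 : Nat.card V ∣ Nat.card K := Subgroup.card_dvd_of_le hVK
    have h3 : Nat.card (Subgroup.zpowers u) ∣ Nat.card K := Subgroup.card_dvd_of_le hZK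
    rw [hV4] at h4
    rw [hZ3] at h3
    have hle : Nat.card K ≤ 12 := by
      have e1 : Nat.card K = Nat.card ↥((V : Set G) *
          ((Subgroup.zpowers u : Subgroup G) : Set G)) := by
        rw [← hcoeK]
        rfl
      have e2 := Set.natCard_mul_le (s := (V : Set G))
        (t := ((Subgroup.zpowers u : Subgroup G) : Set G))
      have e3 : Nat.card ↥(V : Set G) = 4 := hV4
      have e4 : Nat.card ↥((Subgroup.zpowers u : Subgroup G) : Set G) = 3 := hZ3
      rw [e3, e4] at e2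
      omega
    have hpos : 0 < Nat.card K := Nat.card_pos
    omega
  -- conjugation by elements of `K` on `V`
  have hKconj : ∀ x ∈ K, ∀ v ∈ V, x * v * x⁻¹ ∈ V := by
    intro x hx v hv
    obtain ⟨v', hv', y, hy, rfl⟩ := hKelts x hx
    have e : v' * y * v * (v' * y)⁻¹ = v' * (y * v * y⁻¹) * v'⁻¹ := by group
    rw [e]
    exact V.mul_mem (V.mul_mem hv' (hZconj y hy v hv)) (V.inv_mem hv')
  have hKconj_eq : ∀ v' ∈ V, ∀ y ∈ Subgroup.zpowers u, ∀ w ∈ V,
      (v' * y) * w * (v' * y)⁻¹ = y * w * y⁻¹ := by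
    intro v' hv' y hy w hw
    have e : v' * y * w * (v' * y)⁻¹ = v' * (y * w * y⁻¹) * v'⁻¹ := by group
    rw [e, hVcomm v' hv' _ (hZconj y hy w hw)]
    group
  -- elements of `K` outside `V` act without fixed points
  have hF2 : ∀ t ∈ K, t ∉ V → ∀ w ∈ V, t * w * t⁻¹ = w → w = 1 := by
    intro t ht htV w hw hfw
    obtain ⟨v', hv', y, hy, rfl⟩ := hKelts t ht
    rw [hKconj_eq v' hv' y hy w hw] at hfw
    rcases hZelts y hy with h | h | h
    · exfalso
      apply htV
      rw [h, mul_one]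
      exact hv'
    · rw [h] at hfw
      exact hfix w hw hfw
    · rw [h] at hfw
      exact hfix2 w hw hfw
  -- involutions of `K` lie in `V`
  have hKinv : ∀ z ∈ K, z * z = 1 → z ∈ V := by
    intro z hz hzz
    obtain ⟨v', hv', y, hy, rfl⟩ := hKelts z hz
    have e : y * y = (y * v' * y⁻¹)⁻¹ * v'⁻¹ * (v' * y * (v' * y)) := by group
    rw [hzz, mul_one] at e
    have hyy : y * y ∈ V := by
      rw [e]
      exact V.mul_mem (V.inv_mem (hZconj y hy v' hv')) (V.inv_mem hv')
    rcases hZelts y hy with h | h | h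
    · rw [h, mul_one]
      exact hv'
    · exfalso
      rw [h] at hyy
      exact huuV hyy
    · exfalso
      rw [h] at hyy
      have e2 : u * u * (u * u) = (u * u * u) * u := by group
      rw [e2, hu3, one_mul] at hyy
      exact huV hyy
  -- the element `s`
  have hsi : s * i * s⁻¹ = i := by
    rw [← hs2]
    group
  have hsij : s * (i * j) * s⁻¹ = j := by
    calc s * (i * j) * s⁻¹ = (s * i * s⁻¹) * (s * j * s⁻¹) := by group
      _ = i * (i * j) := by rw [hsi, hsj]
      _ = (i * i) * j := by group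
      _ = j := by rw [hi2, one_mul]
  have hsV : ∀ v ∈ V, s * v * s⁻¹ ∈ V := by
    intro v hv
    rcases (hVmem v).mp hv with h | h | h | h
    · rw [h, mul_one, mul_inv_cancel]
      exact one_mem _
    · rw [h, hsi]
      exact hiV
    · rw [h, hsj]
      exact hijV
    · rw [h, hsij]
      exact hjV
  have hsuK : s * u * s⁻¹ ∈ K := by
    rw [hsu]
    exact K.mul_mem (hVK hiV) (K.inv_mem huK)
  have hsK : ∀ x ∈ K, s * x * s⁻¹ ∈ K := by
    intro x hx
    obtain ⟨v', hv', y, hy, rfl⟩ := hKelts x hx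
    have e : s * (v' * y) * s⁻¹ = (s * v' * s⁻¹) * (s * y * s⁻¹) := by group
    rw [e]
    refine K.mul_mem (hVK (hsV v' hv')) ?_
    rcases hZelts y hy with h | h | h
    · rw [h, mul_one, mul_inv_cancel]
      exact one_mem _
    · rw [h]
      exact hsuK
    · rw [h]
      have e2 : s * (u * u) * s⁻¹ = (s * u * s⁻¹) * (s * u * s⁻¹) := by group
      rw [e2]
      exact K.mul_mem hsuK hsuK
  have hsNK : Subgroup.zpowers s ≤ Subgroup.normalizer (K : Set G) := by
    rw [Subgroup.zpowers_le]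
    exact mem_normalizer_of_conj_mem K s hsK
  have hsNV : Subgroup.zpowers s ≤ Subgroup.normalizer (V : Set G) := by
    rw [Subgroup.zpowers_le]
    exact mem_normalizer_of_conj_mem V s hsV
  have hsnotK : s ∉ K := by
    intro hsK'
    obtain ⟨v', hv', y, hy, hs⟩ := hKelts s hsK'
    have h1 : y * i * y⁻¹ = i := by
      rw [← hKconj_eq v' hv' y hy i hiV, ← hs]
      exact hsi
    have hy1 : y = 1 := by
      rcases hZelts y hy with h | h | h
      · exact h
      · exfalso
        rw [h, ← hjdef] at h1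
        exact hij h1.symm
      · exfalso
        rw [h] at h1
        exact hi1 (hfix2 i hiV h1)
    rw [hy1, mul_one] at hs
    have h2 := hVsq s (hs ▸ hv')
    rw [hs2] at h2
    exact hi1 h2
  -- the subgroup `H`
  obtain ⟨H, hHdef⟩ : ∃ H : Subgroup G, H = K ⊔ Subgroup.zpowers s := ⟨_, rfl⟩
  have hKH : K ≤ H := by rw [hHdef]; exact le_sup_left
  have hsH : s ∈ H := by
    rw [hHdef]
    exact (le_sup_right : Subgroup.zpowers s ≤ _) (Subgroup.mem_zpowers s)
  have hcoeH : (H : Set G) = (K : Set G) * ((Subgroup.zpowers s : Subgroup G) : Set G) := by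
    rw [hHdef]
    exact Subgroup.coe_mul_of_right_le_normalizer_left _ _ hsNK
  have hspow : ∀ y ∈ Subgroup.zpowers s, y ∈ K ∨ ∃ k ∈ K, y = k * s := by
    intro y hy
    obtain ⟨n, hn⟩ := Subgroup.mem_zpowers_iff.mp hy
    have hs2' : s ^ (2 : ℤ) = i := by
      rw [show (2 : ℤ) = ((2 : ℕ) : ℤ) from rfl, zpow_natCast, pow_two]
      exact hs2
    rcases Int.even_or_odd' n with ⟨m, hm | hm⟩
    · left
      rw [← hn, hm, zpow_mul, hs2']
      exact K.zpow_mem (hVK hiV) m
    · right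
      refine ⟨i ^ m, K.zpow_mem (hVK hiV) m, ?_⟩
      rw [← hn, hm, zpow_add, zpow_mul, hs2', zpow_one]
  have hHelts : ∀ x ∈ H, x ∈ K ∨ ∃ k ∈ K, x = k * s := by
    intro x hx
    have hx' : x ∈ (K : Set G) * ((Subgroup.zpowers s : Subgroup G) : Set G) := by
      rw [← hcoeH]
      exact hx
    obtain ⟨k, hk, y, hy, hky⟩ := Set.mem_mul.mp hx'
    rcases hspow y hy with h | ⟨k', hk', h⟩
    · left
      rw [← hky]
      exact K.mul_mem hk h
    · right
      refine ⟨k * k', K.mul_mem hk hk', ?_⟩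
      rw [← hky, h, mul_assoc]
  have hH24 : Nat.card H = 24 := by
    have h12 : Nat.card K ∣ Nat.card H := Subgroup.card_dvd_of_le hKH
    rw [hK12] at h12
    have hle : Nat.card H ≤ 24 := by
      have hsub : (H : Set G) ⊆ (K : Set G) ∪ (fun k => k * s) '' (K : Set G) := by
        intro x hx
        rcases hHelts x hx with h | ⟨k, hk, h⟩
        · exact Or.inl h
        · exact Or.inr ⟨k, hk, h.symm⟩
      have e1 : Nat.card H = (H : Set G).ncard := Nat.card_coe_set_eq _
      have e2 : Nat.card K = (K : Set G).ncard := Nat.card_coe_set_eq _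
      have e3 := Set.ncard_le_ncard hsub (Set.toFinite _)
      have e4 := Set.ncard_union_le (K : Set G) ((fun k => k * s) '' (K : Set G))
      have e5 := Set.ncard_image_le (f := fun k => k * s) (Set.toFinite (K : Set G))
      omega
    have hne : Nat.card H ≠ 12 := by
      intro h
      have hKeq : K = H := Subgroup.eq_of_le_of_card_ge hKH (by rw [h, hK12])
      apply hsnotK
      rw [hKeq]
      exact hsH
    have hpos : 0 < Nat.card H := Nat.card_pos
    omega
  have hHV : ∀ x ∈ H, ∀ v ∈ V, x * v * x⁻¹ ∈ V := by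
    have hle : H ≤ Subgroup.normalizer (V : Set G) := by
      rw [hHdef, hKdef]
      exact sup_le (sup_le Subgroup.le_normalizer hZnorm) hsNV
    intro x hx v hv
    exact (Subgroup.mem_normalizer_iff.mp (hle hx) v).mp hv
  have hsqK : ∀ x ∈ H, x * x ∈ K := by
    intro x hx
    rcases hHelts x hx with h | ⟨k, hk, h⟩
    · exact K.mul_mem h h
    · have e : x * x = k * (s * k * s⁻¹) * (s * s) := by rw [h]; group
      rw [e, hs2]
      exact K.mul_mem (K.mul_mem hk (hsK k hk)) (hVK hiV)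
  refine ⟨H, Cfsg.Agent.S1012.result hH24 ?_⟩
  intro g hg6
  have hg6' : orderOf (g : G) = 6 := by rw [Subgroup.orderOf_coe]; exact hg6
  have hgH : (g : G) ∈ H := g.2
  obtain ⟨g', hg'⟩ : ∃ g' : G, g' = (g : G) := ⟨_, rfl⟩
  rw [← hg'] at hg6' hgH
  have hpow6 : g' ^ 6 = 1 := by rw [← hg6']; exact pow_orderOf_eq_one g'
  have ht3 : (g' ^ 2) * (g' ^ 2) * (g' ^ 2) = 1 := by
    rw [← pow_add, ← pow_add]
    exact hpow6
  have ht1 : g' ^ 2 ≠ 1 := by
    intro h
    have := orderOf_dvd_of_pow_eq_one h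
    rw [hg6'] at this
    omega
  have hz2 : (g' ^ 3) * (g' ^ 3) = 1 := by
    rw [← pow_add]
    exact hpow6
  have hz1 : g' ^ 3 ≠ 1 := by
    intro h
    have := orderOf_dvd_of_pow_eq_one h
    rw [hg6'] at this
    omega
  have hzt : (g' ^ 3) * (g' ^ 2) = (g' ^ 2) * (g' ^ 3) := (Commute.pow_pow_self g' 3 2).eq
  have htK : g' ^ 2 ∈ K := by
    rw [pow_two]
    exact hsqK g' hgH
  have htV : g' ^ 2 ∉ V := by
    intro h
    have h1 := hVsq _ h
    rw [h1, one_mul] at ht3
    exact ht1 ht3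
  have hzH : g' ^ 3 ∈ H := H.pow_mem hgH 3
  obtain ⟨t, htdef⟩ : ∃ t : G, t = g' ^ 2 := ⟨_, rfl⟩
  obtain ⟨z, hzdef⟩ : ∃ z : G, z = g' ^ 3 := ⟨_, rfl⟩
  rw [← htdef] at ht3 ht1 htK htV hzt
  rw [← hzdef] at hz2 hz1 hzt hzH
  have hzinv : z⁻¹ = z := inv_eq_of_mul_eq_one_left hz2
  have htz : t * z * t⁻¹ = z := by
    rw [← hzt]
    group
  by_cases hzK : z ∈ K
  · have hzV : z ∈ V := hKinv z hzK hz2
    exact hz1 (hF2 t htK htV z hzV htz)
  · -- `z` does not centralize `V`
    have hnc : ¬ ∀ w ∈ V, z * w * z⁻¹ = w := by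
      intro hall
      rcases hHelts z hzH with h | ⟨k, hk, h⟩
      · exact hzK h
      · obtain ⟨v', hv', y, hy, hkvy⟩ := hKelts k hk
        have hform : ∀ w ∈ V, z * w * z⁻¹ = y * (s * w * s⁻¹) * y⁻¹ := by
          intro w hw
          have e : z * w * z⁻¹ = (v' * y) * (s * w * s⁻¹) * (v' * y)⁻¹ := by
            rw [h, hkvy]
            group
          rw [e, hKconj_eq v' hv' y hy _ (hsV w hw)]
        have h1 : y * i * y⁻¹ = i := by
          have := hall i hiV
          rw [hform i hiV, hsi] at this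
          exact this
        have hy1 : y = 1 := by
          rcases hZelts y hy with h | h | h
          · exact h
          · exfalso
            rw [h, ← hjdef] at h1
            exact hij h1.symm
          · exfalso
            rw [h] at h1
            exact hi1 (hfix2 i hiV h1)
        have h3 := hall j hjV
        rw [hform j hjV, hsj, hy1] at h3
        have h4 : i * j = j := by
          rw [one_mul, inv_one, mul_one] at h3
          exact h3
        exact hi1 (mul_eq_right.mp h4)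
    -- a nontrivial fixed point of `z`
    obtain ⟨w₀, hw₀V, hw₀1, hw₀fix⟩ : ∃ w₀ ∈ V, w₀ ≠ 1 ∧ z * w₀ * z⁻¹ = w₀ := by
      by_cases hzi : z * i * z⁻¹ = i
      · exact ⟨i, hiV, hi1, hzi⟩
      · have hziV : z * i * z⁻¹ ∈ V := hHV z hzH i hiV
        refine ⟨i * (z * i * z⁻¹), V.mul_mem hiV hziV, ?_, ?_⟩
        · intro h
          apply hzi
          have e : z * i * z⁻¹ = i⁻¹ * (i * (z * i * z⁻¹)) := by group
          rw [e, h, mul_one]
          exact inv_eq_of_mul_eq_one_left hi2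
        · have e : z * (i * (z * i * z⁻¹)) * z⁻¹ = (z * i * z⁻¹) * ((z * z) * i * (z * z)⁻¹) := by
            group
          rw [e, hz2, one_mul, inv_one, mul_one]
          exact hVcomm _ hziV _ hiV
    -- its image under `t`
    have hw₁V : t * w₀ * t⁻¹ ∈ V := hKconj t htK w₀ hw₀V
    have hw₁1 : t * w₀ * t⁻¹ ≠ 1 := by
      intro h
      apply hw₀1
      have e : w₀ = t⁻¹ * (t * w₀ * t⁻¹) * t := by group
      rw [e, h]
      group
    have hw₁ne : w₀ ≠ t * w₀ * t⁻¹ := by
      intro h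
      exact hw₀1 (hF2 t htK htV w₀ hw₀V h.symm)
    have hw₁fix : z * (t * w₀ * t⁻¹) * z⁻¹ = t * w₀ * t⁻¹ := by
      have e : z * (t * w₀ * t⁻¹) * z⁻¹ = (z * t) * w₀ * (z * t)⁻¹ := by group
      have e2 : (t * z) * w₀ * (t * z)⁻¹ = t * (z * w₀ * z⁻¹) * t⁻¹ := by group
      rw [e, hzt, e2, hw₀fix]
    apply hnc
    obtain ⟨w₁, hw₁def⟩ : ∃ w₁ : G, w₁ = t * w₀ * t⁻¹ := ⟨_, rfl⟩
    rw [← hw₁def] at hw₁V hw₁1 hw₁ne hw₁fix
    have hW : fourGroup w₀ w₁ (hVsq w₀ hw₀V) (hVsq w₁ hw₁V) (hVcomm w₀ hw₀V w₁ hw₁V) = V := by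
      apply Subgroup.eq_of_le_of_card_ge
      · intro x hx
        rcases (mem_fourGroup _ _ _ _ _ x).mp hx with h | h | h | h
        · rw [h]; exact one_mem _
        · rw [h]; exact hw₀V
        · rw [h]; exact hw₁V
        · rw [h]; exact V.mul_mem hw₀V hw₁V
      · rw [hV4, card_fourGroup _ _ _ _ _ hw₀1 hw₁1 hw₁ne]
    intro w hw
    rw [← hW] at hw
    rcases (mem_fourGroup _ _ _ _ _ w).mp hw with h | h | h | h
    · rw [h]; group
    · rw [h]; exact hw₀fix
    · rw [h]; exact hw₁fix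
    · rw [h]
      have e : z * (w₀ * w₁) * z⁻¹ = (z * w₀ * z⁻¹) * (z * w₁ * z⁻¹) := by group
      rw [e, hw₀fix, hw₁fix]

end Cfsg.Agent.Lib.Helper16.S4Elts
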