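import Mathlib
import Cfsg.Agent.Lib.Helper16.S4Elts
import Cfsg.Agent.Lib.Helper16.PSL2A4
import Cfsg.Agent.Lib.Helper2.Subfield2

/-!
# Copies of the symmetric group of degree four in `PSL₂(q)`

* `exists_s4_odd`: if `q` is odd and `2` is a square, `PSL₂(q)` contains a copy of `S₄`.
* `no_s4_char2`: in characteristic two there is none (no element of order four).
-/

set_option autoImplicit false

namespace Cfsg.Agent.Lib.Helper16.PSL2S4

open Cfsg.Agent.Lib.Helper14.SL2Odd Cfsg.Agent.Lib.Helper16.SL2Four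
  Cfsg.Agent.Lib.Helper16.KleinPairs Cfsg.Agent.Lib.Helper16.PSL2A4

variable {F : Type*} [Field F]

/-- the binary octahedral data -/
theorem exists_s4_data (h2 : (2 : F) ≠ 0) (r : F) (hr : r * r = 2)
    (m : Matrix.SpecialLinearGroup (Fin 2) F) (hm : m ∈ antiSet F) :
    ∃ ω σ : Matrix.SpecialLinearGroup (Fin 2) F, ω * cs * ω⁻¹ = cs * m ∧ ω * m * ω⁻¹ = cs ∧
      ω * ω * ω = 1 ∧ σ * σ = cs ∧ σ * m * σ⁻¹ = cs * m ∧ σ * ω * σ⁻¹ = negOne * cs * ω⁻¹ := by
  obtain ⟨a, b, hm', hab⟩ := anti_form m hm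
  obtain ⟨e, he⟩ : ∃ e : F, 2 * e = 1 := ⟨(2 : F)⁻¹, mul_inv_cancel₀ h2⟩
  have hr0 : r ≠ 0 := by
    rintro rfl
    rw [mul_zero] at hr
    exact h2 hr.symm
  obtain ⟨c, hc⟩ : ∃ c : F, c * r = 1 := ⟨r⁻¹, inv_mul_cancel₀ hr0⟩
  have hd : (!![e * (-1 + a - b), e * (-1 + a + b); e * (1 + a + b), e * (-1 - a + b)] :
      Matrix (Fin 2) (Fin 2) F).det = 1 := by
    rw [Matrix.det_fin_two_of]
    linear_combination (2 * e + 1) * he - 2 * e ^ 2 * hab
  have hdσ : (!![c, -c; c, c] : Matrix (Fin 2) (Fin 2) F).det = 1 := by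
    rw [Matrix.det_fin_two_of]
    grind
  obtain ⟨ω, hω⟩ : ∃ ω : Matrix.SpecialLinearGroup (Fin 2) F,
      (ω : Matrix (Fin 2) (Fin 2) F) =
        !![e * (-1 + a - b), e * (-1 + a + b); e * (1 + a + b), e * (-1 - a + b)] :=
    ⟨⟨_, hd⟩, rfl⟩
  obtain ⟨σ, hσ⟩ : ∃ σ : Matrix.SpecialLinearGroup (Fin 2) F,
      (σ : Matrix (Fin 2) (Fin 2) F) = !![c, -c; c, c] := ⟨⟨_, hdσ⟩, rfl⟩
  refine ⟨ω, σ, ?_, ?_, ?_, ?_, ?_, ?_⟩
  · rw [mul_inv_eq_iff_eq_mul]
    apply Subtype.ext
    rw [Matrix.SpecialLinearGroup.coe_mul, Matrix.SpecialLinearGroup.coe_mul,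
      Matrix.SpecialLinearGroup.coe_mul, cs_coe, hω, hm']
    simp only [Matrix.mul_fin_two]
    apply mat_eq <;> grind
  · rw [mul_inv_eq_iff_eq_mul]
    apply Subtype.ext
    rw [Matrix.SpecialLinearGroup.coe_mul, Matrix.SpecialLinearGroup.coe_mul, cs_coe, hω, hm']
    simp only [Matrix.mul_fin_two]
    apply mat_eq <;> grind
  · exact cube_of_tr ω _ _ _ _ hω (by linear_combination (-1) * he)
  · apply Subtype.ext
    rw [Matrix.SpecialLinearGroup.coe_mul, cs_coe, hσ]
    simp only [Matrix.mul_fin_two]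
    apply mat_eq <;> grind
  · rw [mul_inv_eq_iff_eq_mul]
    apply Subtype.ext
    rw [Matrix.SpecialLinearGroup.coe_mul, Matrix.SpecialLinearGroup.coe_mul,
      Matrix.SpecialLinearGroup.coe_mul, cs_coe, hσ, hm']
    simp only [Matrix.mul_fin_two]
    apply mat_eq <;> grind
  · rw [mul_inv_eq_iff_eq_mul]
    apply Subtype.ext
    rw [Matrix.SpecialLinearGroup.coe_mul, Matrix.SpecialLinearGroup.coe_mul,
      Matrix.SpecialLinearGroup.coe_mul, Matrix.SpecialLinearGroup.coe_mul,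
      Matrix.SpecialLinearGroup.coe_inv, cs_coe, negOne_coe, hσ, hω,
      Matrix.adjugate_fin_two_of]
    simp only [Matrix.mul_fin_two]
    apply mat_eq <;> grind

/-- the construction -/
theorem exists_s4_odd [Fintype F] (hodd : Fintype.card F % 2 = 1) (hsq : IsSquare (2 : F)) :
    ∃ H : Subgroup (Matrix.ProjectiveSpecialLinearGroup (Fin 2) F),
      Nonempty (H ≃* Equiv.Perm (Fin 4)) := by
  haveI := finite_psl (F := F)
  have h2 : (2 : F) ≠ 0 := two_ne_zero_of_odd hodd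
  obtain ⟨r, hr⟩ := hsq
  have hinvsq : (cs : Matrix.SpecialLinearGroup (Fin 2) F)⁻¹ * cs⁻¹ = negOne := by
    rw [← mul_inv_rev, cs_sq, inv_eq_iff_mul_eq_one, negOne_mul_negOne]
  obtain ⟨m, hm'⟩ := isConj_iff.mp (isConj_of_sq hodd cs cs⁻¹ cs_sq hinvsq)
  have hm : m ∈ antiSet F := hm'
  obtain ⟨ω, σ, hω1, hω2, hω3, hσ1, hσ2, hσ3⟩ := exists_s4_data h2 r hr.symm m hm
  have hcm := mk_comm_of_anti hm
  have e1 : (ω : Matrix.ProjectiveSpecialLinearGroup (Fin 2) F) *
      ((cs : Matrix.SpecialLinearGroup (Fin 2) F) : Matrix.ProjectiveSpecialLinearGroup (Fin 2) F) *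
      (ω : Matrix.ProjectiveSpecialLinearGroup (Fin 2) F)⁻¹ =
      ((cs : Matrix.SpecialLinearGroup (Fin 2) F) : Matrix.ProjectiveSpecialLinearGroup (Fin 2) F) *
      (m : Matrix.ProjectiveSpecialLinearGroup (Fin 2) F) :=
    congrArg (fun g : Matrix.SpecialLinearGroup (Fin 2) F =>
      (g : Matrix.ProjectiveSpecialLinearGroup (Fin 2) F)) hω1
  have e2 : (ω : Matrix.ProjectiveSpecialLinearGroup (Fin 2) F) *
      (m : Matrix.ProjectiveSpecialLinearGroup (Fin 2) F) *
      (ω : Matrix.ProjectiveSpecialLinearGroup (Fin 2) F)⁻¹ =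
      ((cs : Matrix.SpecialLinearGroup (Fin 2) F) :
        Matrix.ProjectiveSpecialLinearGroup (Fin 2) F) :=
    congrArg (fun g : Matrix.SpecialLinearGroup (Fin 2) F =>
      (g : Matrix.ProjectiveSpecialLinearGroup (Fin 2) F)) hω2
  have e3 : (σ : Matrix.ProjectiveSpecialLinearGroup (Fin 2) F) *
      (σ : Matrix.ProjectiveSpecialLinearGroup (Fin 2) F) =
      ((cs : Matrix.SpecialLinearGroup (Fin 2) F) :
        Matrix.ProjectiveSpecialLinearGroup (Fin 2) F) :=
    congrArg (fun g : Matrix.SpecialLinearGroup (Fin 2) F =>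
      (g : Matrix.ProjectiveSpecialLinearGroup (Fin 2) F)) hσ1
  have e4 : (σ : Matrix.ProjectiveSpecialLinearGroup (Fin 2) F) *
      (m : Matrix.ProjectiveSpecialLinearGroup (Fin 2) F) *
      (σ : Matrix.ProjectiveSpecialLinearGroup (Fin 2) F)⁻¹ =
      ((cs : Matrix.SpecialLinearGroup (Fin 2) F) : Matrix.ProjectiveSpecialLinearGroup (Fin 2) F) *
      (m : Matrix.ProjectiveSpecialLinearGroup (Fin 2) F) :=
    congrArg (fun g : Matrix.SpecialLinearGroup (Fin 2) F =>
      (g : Matrix.ProjectiveSpecialLinearGroup (Fin 2) F)) hσ2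
  have e5 : (σ : Matrix.ProjectiveSpecialLinearGroup (Fin 2) F) *
      (ω : Matrix.ProjectiveSpecialLinearGroup (Fin 2) F) *
      (σ : Matrix.ProjectiveSpecialLinearGroup (Fin 2) F)⁻¹ =
      ((cs : Matrix.SpecialLinearGroup (Fin 2) F) : Matrix.ProjectiveSpecialLinearGroup (Fin 2) F) *
      (ω : Matrix.ProjectiveSpecialLinearGroup (Fin 2) F)⁻¹ := by
    have h : (σ : Matrix.ProjectiveSpecialLinearGroup (Fin 2) F) *
        (ω : Matrix.ProjectiveSpecialLinearGroup (Fin 2) F) *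
        (σ : Matrix.ProjectiveSpecialLinearGroup (Fin 2) F)⁻¹ =
        ((negOne : Matrix.SpecialLinearGroup (Fin 2) F) :
          Matrix.ProjectiveSpecialLinearGroup (Fin 2) F) *
        ((cs : Matrix.SpecialLinearGroup (Fin 2) F) :
          Matrix.ProjectiveSpecialLinearGroup (Fin 2) F) *
        (ω : Matrix.ProjectiveSpecialLinearGroup (Fin 2) F)⁻¹ :=
      congrArg (fun g : Matrix.SpecialLinearGroup (Fin 2) F =>
        (g : Matrix.ProjectiveSpecialLinearGroup (Fin 2) F)) hσ3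
    rw [mk_negOne, one_mul] at h
    exact h
  have hsi : (σ : Matrix.ProjectiveSpecialLinearGroup (Fin 2) F) *
      ((cs : Matrix.SpecialLinearGroup (Fin 2) F) : Matrix.ProjectiveSpecialLinearGroup (Fin 2) F) *
      (σ : Matrix.ProjectiveSpecialLinearGroup (Fin 2) F)⁻¹ =
      ((cs : Matrix.SpecialLinearGroup (Fin 2) F) :
        Matrix.ProjectiveSpecialLinearGroup (Fin 2) F) := by
    rw [← e3]
    group
  apply Cfsg.Agent.Lib.Helper16.S4Elts.s4_of_elements
    ((cs : Matrix.SpecialLinearGroup (Fin 2) F) : Matrix.ProjectiveSpecialLinearGroup (Fin 2) F)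
    (ω : Matrix.ProjectiveSpecialLinearGroup (Fin 2) F)
    (σ : Matrix.ProjectiveSpecialLinearGroup (Fin 2) F)
    (ne_one_of_order (orderOf_mk h2 cs cs_sq)) (mk_cs_sq h2)
  · rw [e1, mul_assoc, ← hcm]
  · exact congrArg (fun g : Matrix.SpecialLinearGroup (Fin 2) F =>
      (g : Matrix.ProjectiveSpecialLinearGroup (Fin 2) F)) hω3
  · rw [e1]
    calc (ω : Matrix.ProjectiveSpecialLinearGroup (Fin 2) F) *
          (((cs : Matrix.SpecialLinearGroup (Fin 2) F) :
            Matrix.ProjectiveSpecialLinearGroup (Fin 2) F) *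
          (m : Matrix.ProjectiveSpecialLinearGroup (Fin 2) F)) *
          (ω : Matrix.ProjectiveSpecialLinearGroup (Fin 2) F)⁻¹
        = ((ω : Matrix.ProjectiveSpecialLinearGroup (Fin 2) F) *
          ((cs : Matrix.SpecialLinearGroup (Fin 2) F) :
            Matrix.ProjectiveSpecialLinearGroup (Fin 2) F) *
          (ω : Matrix.ProjectiveSpecialLinearGroup (Fin 2) F)⁻¹) *
          ((ω : Matrix.ProjectiveSpecialLinearGroup (Fin 2) F) *
          (m : Matrix.ProjectiveSpecialLinearGroup (Fin 2) F) *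
          (ω : Matrix.ProjectiveSpecialLinearGroup (Fin 2) F)⁻¹) := by group
      _ = _ := by rw [e1, e2, mul_assoc, ← hcm]
  · exact e3
  · rw [e1]
    calc (σ : Matrix.ProjectiveSpecialLinearGroup (Fin 2) F) *
          (((cs : Matrix.SpecialLinearGroup (Fin 2) F) :
            Matrix.ProjectiveSpecialLinearGroup (Fin 2) F) *
          (m : Matrix.ProjectiveSpecialLinearGroup (Fin 2) F)) *
          (σ : Matrix.ProjectiveSpecialLinearGroup (Fin 2) F)⁻¹
        = ((σ : Matrix.ProjectiveSpecialLinearGroup (Fin 2) F) *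
          ((cs : Matrix.SpecialLinearGroup (Fin 2) F) :
            Matrix.ProjectiveSpecialLinearGroup (Fin 2) F) *
          (σ : Matrix.ProjectiveSpecialLinearGroup (Fin 2) F)⁻¹) *
          ((σ : Matrix.ProjectiveSpecialLinearGroup (Fin 2) F) *
          (m : Matrix.ProjectiveSpecialLinearGroup (Fin 2) F) *
          (σ : Matrix.ProjectiveSpecialLinearGroup (Fin 2) F)⁻¹) := by group
      _ = _ := by rw [hsi, e4]
  · exact e5

/-- in characteristic two an element of `SL₂` whose fourth power is one has square one -/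
theorem sq_of_pow_four_char2 (h2 : (2 : F) = 0) (X : Matrix.SpecialLinearGroup (Fin 2) F)
    (h : X * X * (X * X) = 1) : X * X = 1 := by
  obtain ⟨p, q, r, s, hXm, hdet⟩ := sl_form X
  have hXX : (X : Matrix (Fin 2) (Fin 2) F) * (X : Matrix (Fin 2) (Fin 2) F) *
      ((X : Matrix (Fin 2) (Fin 2) F) * (X : Matrix (Fin 2) (Fin 2) F)) = 1 := by
    rw [← Matrix.SpecialLinearGroup.coe_mul, ← Matrix.SpecialLinearGroup.coe_mul, h]
    rfl
  rw [hXm, Matrix.mul_fin_two, Matrix.mul_fin_two, Matrix.one_fin_two] at hXX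
  obtain ⟨b00, b01, b10, b11⟩ := mat_entries hXX
  have htr : p + s = 0 := by
    by_contra hτ
    have g1 : (p + s) ^ 2 * ((p + s) * p + 1) = 0 := by grind
    have g4 : (p + s) ^ 2 * ((p + s) * s + 1) = 0 := by grind
    have hτ2 : (p + s) ^ 2 ≠ 0 := pow_ne_zero 2 hτ
    have k1 := (mul_eq_zero.mp g1).resolve_left hτ2
    have k4 := (mul_eq_zero.mp g4).resolve_left hτ2
    have k5 : (p + s) * (p - s) = 0 := by linear_combination k1 - k4
    have k6 : p = s := sub_eq_zero.mp ((mul_eq_zero.mp k5).resolve_left hτ)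
    apply hτ
    rw [k6]
    linear_combination s * h2
  apply Subtype.ext
  rw [Matrix.SpecialLinearGroup.coe_mul, hXm, Matrix.mul_fin_two]
  show _ = (1 : Matrix (Fin 2) (Fin 2) F)
  rw [Matrix.one_fin_two]
  apply mat_eq <;> grind

theorem perm_four_cycle : ∃ c : Equiv.Perm (Fin 4), c * c * (c * c) = 1 ∧ c * c ≠ 1 :=
  ⟨finRotate 4, by decide, by decide⟩

/-- no copy of `S₄` in characteristic two -/
theorem no_s4_char2 (h2 : (2 : F) = 0)
    (H : Subgroup (Matrix.ProjectiveSpecialLinearGroup (Fin 2) F))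
    (e : ↥H ≃* Equiv.Perm (Fin 4)) : False := by
  obtain ⟨c, hc4, hc2⟩ := perm_four_cycle
  obtain ⟨X, hX⟩ := QuotientGroup.mk_surjective
    ((e.symm c : ↥H) : Matrix.ProjectiveSpecialLinearGroup (Fin 2) F)
  have h4 : ((e.symm c : ↥H) : Matrix.ProjectiveSpecialLinearGroup (Fin 2) F) *
      (e.symm c : ↥H) * ((e.symm c : ↥H) * (e.symm c : ↥H)) = 1 := by
    have := congrArg (fun z => ((e.symm z : ↥H) : Matrix.ProjectiveSpecialLinearGroup (Fin 2) F))
      hc4
    simpa using this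
  have hX4 : X * X * (X * X) = 1 := by
    apply mk_inj_char2 h2
    show (X : Matrix.ProjectiveSpecialLinearGroup (Fin 2) F) * X * (X * X) = 1
    rw [hX]
    exact h4
  have hX2 := sq_of_pow_four_char2 h2 X hX4
  have h5 : ((e.symm c : ↥H) : Matrix.ProjectiveSpecialLinearGroup (Fin 2) F) *
      (e.symm c : ↥H) = 1 := by
    rw [← hX]
    show ((X * X : Matrix.SpecialLinearGroup (Fin 2) F) :
      Matrix.ProjectiveSpecialLinearGroup (Fin 2) F) = 1
    rw [hX2]
    rfl
  apply hc2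
  have h6 : e.symm c * e.symm c = 1 := Subtype.ext h5
  have h7 := congrArg e h6
  rw [map_mul, e.apply_symm_apply, map_one] at h7
  exact h7

end Cfsg.Agent.Lib.Helper16.PSL2S4
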