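import Mathlib
import Cfsg.Agent.Lib.Helper16.QuadSec5
import Cfsg.Agent.Lib.Helper9.Cores

/-!
# `Qd(p)`-free groups are `p`-stable in the normalizer form (helper16)

* `pair_dichotomy`: two elements normalizing a `p`-subgroup `P` and acting quadratically on it
  generate a group acting on `P` as a `p`-group, or `Qd(p)` is involved.
* `isNormalizerPStable_of_qd_free`: a finite group not involving `Qd(p)` (`p` odd) is
  `p`-stable in the normalizer form.
-/

set_option autoImplicit false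
open scoped MatrixGroups Matrix commutatorElement

namespace Cfsg.Agent.Lib.Helper16.QuadSec

open Cfsg

universe u

theorem pair_dichotomy {G : Type u} [Group G] [Finite G] (p : ℕ) [Fact p.Prime] (hp : p ≠ 2)
    (P : Subgroup G) (hP : IsPGroup p P) (a b : G)
    (ha : a ∈ Subgroup.normalizer (P : Set G)) (hb : b ∈ Subgroup.normalizer (P : Set G))
    (hqa : ∀ x ∈ P, a * (a * x * a⁻¹ * x⁻¹) * a⁻¹ = a * x * a⁻¹ * x⁻¹)
    (hqb : ∀ x ∈ P, b * (b * x * b⁻¹ * x⁻¹) * b⁻¹ = b * x * b⁻¹ * x⁻¹) :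
    (∀ k ∈ Subgroup.closure ({a, b} : Set G),
      ∃ j : ℕ, k ^ p ^ j ∈ Subgroup.centralizer (P : Set G)) ∨
      Involves ↥(Cfsg.qd p) G := by
  have hKN : Subgroup.closure ({a, b} : Set G) ≤ Subgroup.normalizer (P : Set G) := by
    rw [Subgroup.closure_le]
    rintro x (rfl | rfl)
    · exact ha
    · exact hb
  let φ : ↥(Subgroup.closure ({a, b} : Set G)) →* Monoid.End P :=
    { toFun := fun h =>
        { toFun := fun x => ⟨(h : G) * (x : G) * (h : G)⁻¹,
            (Subgroup.mem_normalizer_iff.mp (hKN h.2) (x : G)).mp x.2⟩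
          map_one' := Subtype.ext (by
            show (h : G) * 1 * (h : G)⁻¹ = 1
            group)
          map_mul' := fun x y => Subtype.ext (by
            show (h : G) * ((x : G) * (y : G)) * (h : G)⁻¹ =
              ((h : G) * (x : G) * (h : G)⁻¹) * ((h : G) * (y : G) * (h : G)⁻¹)
            group) }
      map_one' := by
        refine MonoidHom.ext (fun x => Subtype.ext ?_)
        show (1 : G) * (x : G) * (1 : G)⁻¹ = x
        group
      map_mul' := fun h h' => by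
        refine MonoidHom.ext (fun x => Subtype.ext ?_)
        show ((h : G) * (h' : G)) * (x : G) * ((h : G) * (h' : G))⁻¹ =
          (h : G) * ((h' : G) * (x : G) * (h' : G)⁻¹) * (h : G)⁻¹
        group }
  have hφ : ∀ (h : ↥(Subgroup.closure ({a, b} : Set G))) (x : P),
      ((φ h x : P) : G) = (h : G) * (x : G) * (h : G)⁻¹ := fun h x => rfl
  let a' : Subgroup.closure ({a, b} : Set G) := ⟨a, Subgroup.subset_closure (by simp)⟩
  let b' : Subgroup.closure ({a, b} : Set G) := ⟨b, Subgroup.subset_closure (by simp)⟩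
  have hab : Subgroup.closure ({a', b'} : Set (Subgroup.closure ({a, b} : Set G))) = ⊤ := by
    apply Subgroup.map_injective (Subgroup.closure ({a, b} : Set G)).subtype_injective
    rw [MonoidHom.map_closure, Set.image_pair, ← MonoidHom.range_eq_map, Subgroup.range_subtype]
    rfl
  have hqa' : ∀ x : P, φ a' (φ a' x * x⁻¹) = φ a' x * x⁻¹ := fun x => Subtype.ext (hqa x x.2)
  have hqb' : ∀ x : P, φ b' (φ b' x * x⁻¹) = φ b' x * x⁻¹ := fun x => Subtype.ext (hqb x x.2)
  rcases quad_pair_grp p hP φ a' b' hab hqa' hqb' with key | key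
  · left
    intro k hk
    obtain ⟨j, hj⟩ := key ⟨k, hk⟩
    refine ⟨j, ?_⟩
    rw [← map_pow] at hj
    rw [Subgroup.mem_centralizer_iff]
    intro v hv
    have h1 := congrArg (fun f : Monoid.End P => ((f ⟨v, hv⟩ : P) : G)) hj
    have h2 : k ^ p ^ j * v * (k ^ p ^ j)⁻¹ = v := h1
    calc v * k ^ p ^ j = (k ^ p ^ j * v * (k ^ p ^ j)⁻¹) * k ^ p ^ j := by rw [h2]
      _ = k ^ p ^ j * v := by group
  · right
    exact involves_of_hasSecG p hp P hP _ φ hφ a' b' key

/-- **`Qd(p)`-free groups are `p`-stable** (normalizer form, `p` odd). -/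
theorem isNormalizerPStable_of_qd_free {Y : Type u} [Group Y] [Finite Y] (p : ℕ) [Fact p.Prime]
    (hp : p ≠ 2) (hfree : ¬ Involves ↥(Cfsg.qd p) Y) : Cfsg.IsNormalizerPStable p Y := by
  intro P hP g hg hquad
  have hqg : ∀ x ∈ P, g * (g * x * g⁻¹ * x⁻¹) * g⁻¹ = g * x * g⁻¹ * x⁻¹ := by
    intro x hx
    have h1 : ⁅x, g⁆ ∈ ⁅P, Subgroup.zpowers g⁆ :=
      Subgroup.commutator_mem_commutator hx (Subgroup.mem_zpowers g)
    have h2 : ⁅⁅x, g⁆⁻¹, g⁆ ∈ ⁅⁅P, Subgroup.zpowers g⁆, Subgroup.zpowers g⁆ :=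
      Subgroup.commutator_mem_commutator (Subgroup.inv_mem _ h1) (Subgroup.mem_zpowers g)
    rw [hquad, Subgroup.mem_bot] at h2
    have h3 := commutatorElement_eq_one_iff_mul_comm.1 h2
    have h4 : ⁅x, g⁆⁻¹ = g * x * g⁻¹ * x⁻¹ := by rw [commutatorElement_def]; group
    rw [h4] at h3
    rw [← h3]
    group
  have hpair : ∀ n ∈ Subgroup.normalizer (P : Set Y),
      ∀ k ∈ Subgroup.closure ({g, n * g * n⁻¹} : Set Y),
      ∃ j : ℕ, k ^ p ^ j ∈ Subgroup.centralizer (P : Set Y) := by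
    intro n hn
    have hb : n * g * n⁻¹ ∈ Subgroup.normalizer (P : Set Y) :=
      Subgroup.mul_mem _ (Subgroup.mul_mem _ hn hg) (Subgroup.inv_mem _ hn)
    have hqb : ∀ x ∈ P, (n * g * n⁻¹) * ((n * g * n⁻¹) * x * (n * g * n⁻¹)⁻¹ * x⁻¹) *
        (n * g * n⁻¹)⁻¹ = (n * g * n⁻¹) * x * (n * g * n⁻¹)⁻¹ * x⁻¹ := by
      intro x hx
      have hx' : n⁻¹ * x * n ∈ P := by
        have := (Subgroup.mem_normalizer_iff.mp (Subgroup.inv_mem _ hn) x).mp hx
        rwa [inv_inv] at this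
      have h1 := hqg _ hx'
      have e1 : (n * g * n⁻¹) * x * (n * g * n⁻¹)⁻¹ * x⁻¹ =
          n * (g * (n⁻¹ * x * n) * g⁻¹ * (n⁻¹ * x * n)⁻¹) * n⁻¹ := by group
      rw [e1]
      calc (n * g * n⁻¹) * (n * (g * (n⁻¹ * x * n) * g⁻¹ * (n⁻¹ * x * n)⁻¹) * n⁻¹) *
            (n * g * n⁻¹)⁻¹
          = n * (g * (g * (n⁻¹ * x * n) * g⁻¹ * (n⁻¹ * x * n)⁻¹) * g⁻¹) * n⁻¹ := by group
        _ = n * (g * (n⁻¹ * x * n) * g⁻¹ * (n⁻¹ * x * n)⁻¹) * n⁻¹ := by rw [h1]
    rcases pair_dichotomy p hp P hP g (n * g * n⁻¹) hg hb hqg hqb with h | h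
    · exact h
    · exact absurd h hfree
  obtain ⟨D, hDN, hND, hCD, hgD, hDp⟩ := Cfsg.Agent.Lib.Lead.QuadNS2.stable_bridge_gen p P
    (Subgroup.normalizer (P : Set Y)) le_rfl g hg hpair
  have hDn : (D.subgroupOf (Subgroup.normalizer (P : Set Y))).Normal := by
    constructor
    intro x hx n
    rw [Subgroup.mem_subgroupOf] at hx ⊢
    exact (Subgroup.mem_normalizer_iff.mp (hND n.2) x).mp hx
  have hDmap : IsPGroup p ((D.subgroupOf (Subgroup.normalizer (P : Set Y))).map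
      (QuotientGroup.mk'
        ((Subgroup.centralizer (P : Set Y)).subgroupOf (Subgroup.normalizer (P : Set Y))))) := by
    rintro ⟨_, d, hd, rfl⟩
    obtain ⟨n, hn⟩ := hDp d hd
    refine ⟨n, ?_⟩
    apply Subtype.ext
    simp only [Subgroup.coe_pow, Subgroup.coe_one]
    rw [← map_pow, QuotientGroup.mk'_apply, QuotientGroup.eq_one_iff, Subgroup.mem_subgroupOf]
    exact hn
  have hle := Cfsg.Agent.Lib.Helper9.le_pCore (hDn.map _ (QuotientGroup.mk'_surjective _)) hDmap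
  apply hle
  exact Subgroup.mem_map_of_mem _ (show (⟨g, hg⟩ : Subgroup.normalizer (P : Set Y)) ∈
    D.subgroupOf _ from hgD)

end Cfsg.Agent.Lib.Helper16.QuadSec
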