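import Mathlib
import Cfsg.Agent.Lib.Helper16.QuadSec3
import Cfsg.Agent.Lib.Helper16.NatSL2

/-!
# `Qd(p)` is not `p`-stable in the normalizer form (helper16)
-/

set_option autoImplicit false
open scoped Matrix commutatorElement

namespace Cfsg.Agent.Lib.Helper16.QuadSec

open Cfsg Cfsg.Agent.Lib.Helper16.QdOver Cfsg.Agent.S2301 Cfsg.Agent.Lib.Helper13
  Cfsg.Agent.Lib.Helper13.SL2Syl Cfsg.Agent.Lib.Helper16.NatSL2

universe u

section qd

variable {F : Type*} [Field F]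

theorem tr_inv (z : Fin 2 → F) : (tr z)⁻¹ = tr (-z) := by
  apply inv_eq_of_mul_eq_one_right
  rw [tr_mul, add_neg_cancel, tr_zero]

theorem comm_tr_dg (z : Fin 2 → F) (B : Matrix.SpecialLinearGroup (Fin 2) F) :
    tr z * dg B * (tr z)⁻¹ * (dg B)⁻¹ = tr (z + B.1 *ᵥ (-z)) := by
  rw [tr_inv, mul_assoc (tr z), dg_mul_tr, ← mul_assoc, tr_mul, mul_inv_cancel_right]

theorem tr_injective : Function.Injective (tr (F := F)) := by
  intro z z' h
  have h0 : z 0 = z' 0 := congrArg (fun M : Cfsg.qdOver F => M.1.1 0 2) h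
  have h1 : z 1 = z' 1 := congrArg (fun M : Cfsg.qdOver F => M.1.1 1 2) h
  funext i
  fin_cases i
  · exact h0
  · exact h1

theorem sl2_eq_one_of_fix (B : Matrix.SpecialLinearGroup (Fin 2) F)
    (hfix : ∀ z : Fin 2 → F, B.1 *ᵥ z = z) : B = 1 := by
  have e0 := hfix ![1, 0]
  have e1 := hfix ![0, 1]
  have e00 := congrFun e0 0
  have e01 := congrFun e0 1
  have e10 := congrFun e1 0
  have e11 := congrFun e1 1
  simp [Matrix.mulVec, dotProduct, Fin.sum_univ_two] at e00 e01 e10 e11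
  apply Subtype.ext
  ext i j
  fin_cases i <;> fin_cases j <;> simp [e00, e01, e10, e11]

end qd

/-- a group isomorphic to `Qd(p)` is not `p`-stable in the normalizer form -/
theorem not_stable_of_equiv {Y : Type u} [Group Y] [Finite Y] (p : ℕ) [Fact p.Prime]
    (e : Y ≃* ↥(Cfsg.qdOver (ZMod p))) : ¬ Cfsg.IsNormalizerPStable p Y := by
  intro hst
  haveI : NeZero p := ⟨(Fact.out : p.Prime).ne_zero⟩
  obtain ⟨P, hPdef⟩ : ∃ P : Subgroup Y, P = (blk (F := ZMod p)).ker.comap e.toMonoidHom :=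
    ⟨_, rfl⟩
  have hPmem : ∀ x : Y, x ∈ P ↔ blk (e x) = 1 := by
    intro x
    rw [hPdef]
    exact Iff.rfl
  haveI hPn : P.Normal := by
    rw [hPdef]
    infer_instance
  have hPp : IsPGroup p P := by
    rintro ⟨x, hx⟩
    obtain ⟨k, hk⟩ := ker_isPGroup (F := ZMod p) p ⟨e x, (hPmem x).mp hx⟩
    refine ⟨k, Subtype.ext ?_⟩
    apply e.injective
    show e (x ^ p ^ k) = e 1
    rw [map_pow, map_one]
    exact congrArg Subtype.val hk
  obtain ⟨g, hg⟩ : ∃ g : Y, e g = dg (uMat 1) := ⟨e.symm (dg (uMat 1)), e.apply_symm_apply _⟩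
  have hNtop : Subgroup.normalizer (P : Set Y) = ⊤ := Subgroup.normalizer_eq_top P
  have hgN : g ∈ Subgroup.normalizer (P : Set Y) := by
    rw [hNtop]; exact Subgroup.mem_top g
  have hZ : ∀ y ∈ Subgroup.zpowers g, ∃ s : ZMod p, e y = dg (uMat s) := by
    intro y hy
    obtain ⟨i, rfl⟩ := Subgroup.mem_zpowers_iff.mp hy
    have hmem : uMat (1 : ZMod p) ^ i ∈ US (ZMod p) := Subgroup.zpow_mem _ (uMat_mem 1) i
    obtain ⟨s, hs⟩ := exists_of_mem_US hmem
    refine ⟨s, ?_⟩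
    rw [map_zpow, hg, ← hs, ← dgHom_apply, ← dgHom_apply, map_zpow]
  have hquad : ⁅⁅P, Subgroup.zpowers g⁆, Subgroup.zpowers g⁆ = ⊥ := by
    rw [Subgroup.commutator_eq_bot_iff_le_centralizer, Subgroup.commutator_le]
    intro x hx y hy
    rw [Subgroup.mem_centralizer_iff]
    intro y' hy'
    apply e.injective
    obtain ⟨z, hz⟩ : ∃ z, e x = tr z := ⟨_, eq_tr_of_blk (e x) ((hPmem x).mp hx)⟩
    obtain ⟨s, hs⟩ := hZ y hy
    obtain ⟨s', hs'⟩ := hZ y' hy'
    rw [map_mul, map_mul, commutatorElement_def, map_mul, map_mul, map_mul, map_inv, map_inv, hz,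
      hs, hs', comm_tr_dg, dg_mul_tr]
    congr 2
    rw [uMat_mulVec, uMat_mulVec]
    ext i
    fin_cases i <;> simp
  have h := hst P hPp g hgN hquad
  obtain ⟨θ, hθ⟩ : ∃ θ : ↥(Subgroup.normalizer (P : Set Y)) →*
      Matrix.SpecialLinearGroup (Fin 2) (ZMod p), ∀ n, θ n = blk (e (n : Y)) :=
    ⟨(blk.comp e.toMonoidHom).comp (Subgroup.subtype _), fun n => rfl⟩
  have hC : (Subgroup.centralizer (P : Set Y)).subgroupOf (Subgroup.normalizer (P : Set Y)) ≤
      θ.ker := by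
    intro n hn
    rw [Subgroup.mem_subgroupOf, Subgroup.mem_centralizer_iff] at hn
    rw [MonoidHom.mem_ker, hθ]
    obtain ⟨w, hw⟩ := eq_tr_mul_dg (e (n : Y))
    obtain ⟨B, hB⟩ : ∃ B, B = blk (e (n : Y)) := ⟨_, rfl⟩
    rw [← hB] at hw ⊢
    apply sl2_eq_one_of_fix
    intro z
    have hzP : e.symm (tr z) ∈ P := by rw [hPmem, e.apply_symm_apply, blk_tr]
    have h1 := congrArg e (hn _ hzP)
    rw [map_mul, map_mul, e.apply_symm_apply, hw, ← mul_assoc, tr_mul, mul_assoc, dg_mul_tr,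
      ← mul_assoc, tr_mul] at h1
    have h3 := tr_injective (mul_right_cancel h1)
    have h4 : w + B.1 *ᵥ z = w + z := by rw [← h3, add_comm]
    exact add_left_cancel h4
  obtain ⟨θ', hθ'⟩ : ∃ θ' : (↥(Subgroup.normalizer (P : Set Y)) ⧸
      (Subgroup.centralizer (P : Set Y)).subgroupOf (Subgroup.normalizer (P : Set Y))) →*
      Matrix.SpecialLinearGroup (Fin 2) (ZMod p), ∀ n, θ' (QuotientGroup.mk n) = θ n :=
    ⟨QuotientGroup.lift _ θ hC, fun n => rfl⟩
  have hθ's : Function.Surjective θ' := by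
    intro A
    have hmem : e.symm (dg A) ∈ Subgroup.normalizer (P : Set Y) := by
      rw [hNtop]; exact Subgroup.mem_top _
    refine ⟨QuotientGroup.mk ⟨e.symm (dg A), hmem⟩, ?_⟩
    rw [hθ', hθ]
    show blk (e (e.symm (dg A))) = A
    rw [e.apply_symm_apply, blk_dg]
  have hM : (pCore p (↥(Subgroup.normalizer (P : Set Y)) ⧸
      (Subgroup.centralizer (P : Set Y)).subgroupOf (Subgroup.normalizer (P : Set Y)))).map θ'
      = ⊥ := by
    apply normal_p_trivial p
    · exact Subgroup.Normal.map (Cfsg.pCore_normal p _) _ hθ's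
    · exact (Cfsg.Agent.Lib.Helper9.pCore_isPGroup p _).map _
  have h1 : θ' (QuotientGroup.mk ⟨g, hgN⟩) ∈ (pCore p (↥(Subgroup.normalizer (P : Set Y)) ⧸
      (Subgroup.centralizer (P : Set Y)).subgroupOf (Subgroup.normalizer (P : Set Y)))).map θ' :=
    Subgroup.mem_map_of_mem _ h
  rw [hM, Subgroup.mem_bot, hθ', hθ] at h1
  have h2 : blk (e g) = 1 := h1
  rw [hg, blk_dg] at h2
  have h3 := congrArg (fun B : Matrix.SpecialLinearGroup (Fin 2) (ZMod p) => B.1 0 1) h2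
  simp [uMat_val] at h3

end Cfsg.Agent.Lib.Helper16.QuadSec
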