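import Mathlib
import Cfsg.Prelude.Def_PLocal
import Cfsg.Agent.Lib.Helper16.QuadSec7
import Cfsg.Agent.Lib.Helper16.Basic

/-!
# `Z(J(T))` does not control strong fusion in `Qd(p)` (helper16)
-/

set_option autoImplicit false
open scoped Matrix commutatorElement

namespace Cfsg.Agent.Lib.Helper16.QuadSec

open Cfsg Cfsg.Agent.Lib.Helper16.QdOver Cfsg.Agent.S2301 Cfsg.Agent.Lib.Helper13
  Cfsg.Agent.Lib.Helper13.SL2Syl Cfsg.Agent.Lib.Helper16.NatSL2

universe u

section qd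

variable {F : Type*} [Field F]

theorem trdg_mul (z z' : Fin 2 → F) (A A' : Matrix.SpecialLinearGroup (Fin 2) F) :
    (tr z * dg A) * (tr z' * dg A') = tr (z + A.1 *ᵥ z') * dg (A * A') := by
  rw [mul_assoc, ← mul_assoc (dg A), dg_mul_tr, mul_assoc, ← mul_assoc, tr_mul, ← dg_mul]

theorem trdg_comm_iff (z z' : Fin 2 → F) (s s' : F) :
    (tr z * dg (uMat s)) * (tr z' * dg (uMat s')) = (tr z' * dg (uMat s')) * (tr z * dg (uMat s))
      ↔ s * z' 1 = s' * z 1 := by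
  rw [trdg_mul, trdg_mul, uMat_mul, uMat_mul, add_comm s' s]
  constructor
  · intro h
    have h1 := tr_injective (mul_right_cancel h)
    have h2 := congrFun h1 0
    rw [Pi.add_apply, Pi.add_apply, uMat_mulVec, uMat_mulVec] at h2
    simp at h2
    linear_combination h2
  · intro h
    congr 2
    rw [uMat_mulVec, uMat_mulVec]
    ext i
    fin_cases i
    · simp
      linear_combination h
    · simp
      ring

theorem trdg_inj {z z' : Fin 2 → F} {s s' : F}
    (h : tr z * dg (uMat s) = tr z' * dg (uMat s')) : z = z' ∧ s = s' := by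
  have h1 := congrArg blk h
  rw [map_mul, map_mul, blk_tr, blk_tr, one_mul, one_mul, blk_dg, blk_dg] at h1
  have hs := uMat_inj h1
  rw [hs] at h
  exact ⟨tr_injective (mul_right_cancel h), hs⟩

end qd

/-- in a group isomorphic to `Qd(p)`, `Z(J(T))` does not control strong fusion -/
theorem not_controls_of_equiv {Y : Type u} [Group Y] [Finite Y] (p : ℕ) [Fact p.Prime]
    (e : Y ≃* ↥(Cfsg.qdOver (ZMod p))) :
    ∃ T : Sylow p Y, ¬ Cfsg.ControlsStrongFusion p (Cfsg.centerThompsonAOf (T : Subgroup Y)) := by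
  classical
  haveI : NeZero p := ⟨(Fact.out : p.Prime).ne_zero⟩
  have hpp : p.Prime := Fact.out
  obtain ⟨β, hβ⟩ : ∃ β : Y →* Matrix.SpecialLinearGroup (Fin 2) (ZMod p),
      ∀ y, β y = blk (e y) := ⟨blk.comp e.toMonoidHom, fun y => rfl⟩
  obtain ⟨P₀, hP₀⟩ := exists_sylow_US (F := ZMod p) p
  have hUSp : ∀ u ∈ US (ZMod p), ∃ k : ℕ, u ^ p ^ k = 1 := by
    intro u hu
    rw [← hP₀] at hu
    obtain ⟨k, hk⟩ := P₀.isPGroup' ⟨u, hu⟩
    exact ⟨k, congrArg Subtype.val hk⟩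
  have hkerp : IsPGroup p β.ker := by
    rintro ⟨x, hx⟩
    have hx' : blk (e x) = 1 := by rw [← hβ]; exact hx
    obtain ⟨k, hk⟩ := ker_isPGroup (F := ZMod p) p ⟨e x, hx'⟩
    refine ⟨k, Subtype.ext ?_⟩
    apply e.injective
    show e (x ^ p ^ k) = e 1
    rw [map_pow, map_one]
    exact congrArg Subtype.val hk
  obtain ⟨T₀, hT₀⟩ : ∃ T₀ : Subgroup Y, T₀ = (US (ZMod p)).comap β := ⟨_, rfl⟩
  have hT₀mem : ∀ y, y ∈ T₀ ↔ β y ∈ US (ZMod p) := by
    intro y
    rw [hT₀]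
    exact Iff.rfl
  have hT₀p : IsPGroup p T₀ := by
    rintro ⟨y, hy⟩
    obtain ⟨k, hk⟩ := hUSp _ ((hT₀mem y).mp hy)
    have h1 : y ^ p ^ k ∈ β.ker := by rw [MonoidHom.mem_ker, map_pow, hk]
    obtain ⟨j, hj⟩ := hkerp ⟨y ^ p ^ k, h1⟩
    refine ⟨k + j, Subtype.ext ?_⟩
    show y ^ p ^ (k + j) = 1
    rw [pow_add, pow_mul]
    exact congrArg Subtype.val hj
  obtain ⟨T, hT⟩ := hT₀p.exists_le_sylow
  refine ⟨T, ?_⟩
  have hTU : ∀ y ∈ T, β y ∈ US (ZMod p) := by
    intro y hy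
    have hQ : IsPGroup p ((T : Subgroup Y).map β) := T.isPGroup'.map β
    have hle : (P₀ : Subgroup _) ≤ (T : Subgroup Y).map β := by
      rw [hP₀]
      intro u hu
      refine ⟨e.symm (dg u), hT ((hT₀mem _).mpr ?_), ?_⟩
      · rw [hβ, e.apply_symm_apply, blk_dg]; exact hu
      · rw [hβ, e.apply_symm_apply, blk_dg]
    have heq := P₀.is_maximal' hQ hle
    rw [← hP₀, ← heq]
    exact Subgroup.mem_map_of_mem _ hy
  have hTform : ∀ y ∈ T, ∃ (z : Fin 2 → ZMod p) (s : ZMod p), e y = tr z * dg (uMat s) := by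
    intro y hy
    obtain ⟨z, hz⟩ := eq_tr_mul_dg (e y)
    obtain ⟨s, hs⟩ := exists_of_mem_US (hTU y hy)
    refine ⟨z, s, ?_⟩
    rw [← hs, hβ]
    exact hz
  have hmemT : ∀ (z : Fin 2 → ZMod p) (s : ZMod p), e.symm (tr z * dg (uMat s)) ∈ T := by
    intro z s
    apply hT
    rw [hT₀mem, hβ, e.apply_symm_apply, map_mul, blk_tr, one_mul, blk_dg]
    exact uMat_mem s
  choose! cz cs hcoord using hTform
  have hel : ∀ (z : Fin 2 → ZMod p) (s : ZMod p),
      cz (e.symm (tr z * dg (uMat s))) = z ∧ cs (e.symm (tr z * dg (uMat s))) = s := by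
    intro z s
    have h1 := hcoord _ (hmemT z s)
    rw [e.apply_symm_apply] at h1
    obtain ⟨h2, h3⟩ := trdg_inj h1
    exact ⟨h2.symm, h3.symm⟩
  have hcomm : ∀ y y' : ↥(T : Subgroup Y), y * y' = y' * y ↔
      cs (y : Y) * cz (y' : Y) 1 = cs (y' : Y) * cz (y : Y) 1 := by
    intro y y'
    rw [← trdg_comm_iff, ← hcoord _ y.2, ← hcoord _ y'.2, ← map_mul, ← map_mul]
    constructor
    · intro h
      rw [← Subgroup.coe_mul, ← Subgroup.coe_mul, h]
    · intro h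
      exact Subtype.ext (e.injective h)
  have hcardT : Nat.card ↥(T : Subgroup Y) ≤ p ^ 3 := by
    have hinj : Function.Injective
        (fun y : ↥(T : Subgroup Y) => (cz (y : Y), cs (y : Y))) := by
      intro y y' h
      have h1 : cz (y : Y) = cz (y' : Y) := congrArg Prod.fst h
      have h2 : cs (y : Y) = cs (y' : Y) := congrArg Prod.snd h
      apply Subtype.ext
      apply e.injective
      rw [hcoord _ y.2, hcoord _ y'.2, h1, h2]
    have h3 := Nat.card_le_card_of_injective _ hinj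
    rw [Nat.card_prod, Nat.card_fun, Nat.card_zmod, Nat.card_fin] at h3
    calc Nat.card ↥(T : Subgroup Y) ≤ p ^ 2 * p := h3
      _ = p ^ 3 := by ring
  have hbound : ∀ B : Subgroup ↥(T : Subgroup Y), IsMulCommutative ↥B → Nat.card B ≤ p ^ 2 := by
    intro B hB
    obtain ⟨k, hk⟩ := IsPGroup.iff_card.mp T.isPGroup'
    have hk3 : k ≤ 3 := by
      rw [hk] at hcardT
      exact (Nat.pow_le_pow_iff_right hpp.one_lt).mp hcardT
    have hdvd : Nat.card B ∣ Nat.card ↥(T : Subgroup Y) := Subgroup.card_subgroup_dvd_card B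
    rw [hk] at hdvd
    obtain ⟨j, hjk, hj⟩ := (Nat.dvd_prime_pow hpp).mp hdvd
    rw [hj]
    apply Nat.pow_le_pow_right hpp.pos
    by_contra hj2
    have hj3 : j = k := by omega
    have hBtop : B = ⊤ := by
      apply (Subgroup.card_eq_iff_eq_top B).mp
      rw [hj, hk, hj3]
    have h1 : (⟨e.symm (tr ![0, 1] * dg (uMat 0)), hmemT _ _⟩ : ↥(T : Subgroup Y)) ∈ B := by
      rw [hBtop]; exact Subgroup.mem_top _
    have h2 : (⟨e.symm (tr 0 * dg (uMat 1)), hmemT _ _⟩ : ↥(T : Subgroup Y)) ∈ B := by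
      rw [hBtop]; exact Subgroup.mem_top _
    have h3 := (isMulCommutative_iff_of_setLike.mp hB) _ h1 _ h2
    rw [hcomm] at h3
    simp only [(hel _ _).1, (hel _ _).2] at h3
    simp at h3
  -- the two abelian subgroups of largest order
  have hVT : ∀ y : ↥(T : Subgroup Y), y ∈ (β.ker).subgroupOf (T : Subgroup Y) ↔
      cs (y : Y) = 0 := by
    intro y
    rw [Subgroup.mem_subgroupOf, MonoidHom.mem_ker, hβ, hcoord _ y.2, map_mul, blk_tr, one_mul,
      blk_dg]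
    constructor
    · intro h
      rw [← uMat_zero] at h
      exact uMat_inj h
    · intro h
      rw [h, uMat_zero]
  have hVTmax : (β.ker).subgroupOf (T : Subgroup Y) ∈ maxAbelianSubgroups ↥(T : Subgroup Y) := by
    refine ⟨?_, fun B hB => (hbound B hB).trans ?_⟩
    · apply IsMulCommutative.of_setLike_mul_comm
      intro a ha b hb
      rw [hcomm, (hVT a).mp ha, (hVT b).mp hb, zero_mul, zero_mul]
    · have hinj : Function.Injective (fun z : Fin 2 → ZMod p =>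
          (⟨⟨e.symm (tr z * dg (uMat 0)), hmemT z 0⟩, (hVT _).mpr (hel z 0).2⟩ :
            ↥((β.ker).subgroupOf (T : Subgroup Y)))) := by
        intro z z' h
        have h1 : e.symm (tr z * dg (uMat 0)) = e.symm (tr z' * dg (uMat 0)) :=
          congrArg (fun t : ↥((β.ker).subgroupOf (T : Subgroup Y)) => ((t : ↥(T : Subgroup Y)) : Y)) h
        have h2 := congrArg cz h1
        rw [(hel z 0).1, (hel z' 0).1] at h2
        exact h2
      have h3 := Nat.card_le_card_of_injective _ hinj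
      rw [Nat.card_fun, Nat.card_zmod, Nat.card_fin] at h3
      exact h3
  obtain ⟨g₁, hg₁⟩ : ∃ g₁ : ↥(T : Subgroup Y), (g₁ : Y) = e.symm (tr 0 * dg (uMat 1)) :=
    ⟨⟨_, hmemT 0 1⟩, rfl⟩
  have hg₁c : cz (g₁ : Y) = 0 ∧ cs (g₁ : Y) = 1 := by
    rw [hg₁]; exact hel 0 1
  have hA₂ : ∀ y : ↥(T : Subgroup Y), y ∈ Subgroup.centralizer ({g₁} : Set ↥(T : Subgroup Y)) ↔
      cz (y : Y) 1 = 0 := by
    intro y
    rw [Subgroup.mem_centralizer_iff]
    constructor
    · intro h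
      have h1 := (hcomm g₁ y).mp (h g₁ rfl)
      rw [hg₁c.1, hg₁c.2, one_mul] at h1
      rw [h1]
      simp
    · intro h g hg
      rw [Set.mem_singleton_iff] at hg
      rw [hg, hcomm, hg₁c.1, hg₁c.2, h]
      simp
  have hA₂max : Subgroup.centralizer ({g₁} : Set ↥(T : Subgroup Y)) ∈
      maxAbelianSubgroups ↥(T : Subgroup Y) := by
    refine ⟨?_, fun B hB => (hbound B hB).trans ?_⟩
    · apply IsMulCommutative.of_setLike_mul_comm
      intro a ha b hb
      rw [hcomm, (hA₂ a).mp ha, (hA₂ b).mp hb, mul_zero, mul_zero]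
    · have hinj : Function.Injective (fun q : ZMod p × ZMod p =>
          (⟨⟨e.symm (tr ![q.1, 0] * dg (uMat q.2)), hmemT _ _⟩,
            (hA₂ _).mpr (by rw [(hel _ _).1]; rfl)⟩ :
            ↥(Subgroup.centralizer ({g₁} : Set ↥(T : Subgroup Y))))) := by
        intro q q' h
        have h1 : e.symm (tr ![q.1, 0] * dg (uMat q.2)) =
            e.symm (tr ![q'.1, 0] * dg (uMat q'.2)) :=
          congrArg (fun t : ↥(Subgroup.centralizer ({g₁} : Set ↥(T : Subgroup Y))) =>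
            ((t : ↥(T : Subgroup Y)) : Y)) h
        have h2 := congrArg cz h1
        have h3 := congrArg cs h1
        rw [(hel _ _).1, (hel _ _).1] at h2
        rw [(hel _ _).2, (hel _ _).2] at h3
        have h4 : q.1 = q'.1 := congrFun h2 0
        exact Prod.ext h4 h3
      have h3 := Nat.card_le_card_of_injective _ hinj
      rw [Nat.card_prod, Nat.card_zmod] at h3
      calc p ^ 2 = p * p := by ring
        _ ≤ _ := h3
  have hJ1 : (β.ker).subgroupOf (T : Subgroup Y) ≤ thompsonSubgroupA ↥(T : Subgroup Y) :=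
    le_sSup hVTmax
  have hJ2 : Subgroup.centralizer ({g₁} : Set ↥(T : Subgroup Y)) ≤
      thompsonSubgroupA ↥(T : Subgroup Y) := le_sSup hA₂max
  have hZ2 : ∀ y ∈ Cfsg.centerThompsonAOf (T : Subgroup Y),
      ∃ t : ↥(T : Subgroup Y), (t : Y) = y ∧ cz (t : Y) 1 = 0 := by
    intro y hy
    unfold Cfsg.centerThompsonAOf Cfsg.thompsonSubgroupAOf at hy
    rw [Subgroup.mem_inf] at hy
    obtain ⟨⟨t, ht, rfl⟩, hc⟩ := hy
    refine ⟨t, rfl, ?_⟩
    rw [Subgroup.mem_centralizer_iff] at hc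
    have hg₁mem : g₁ ∈ Subgroup.centralizer ({g₁} : Set ↥(T : Subgroup Y)) := by
      rw [hA₂, hg₁c.1]; rfl
    have h1 := hc (g₁ : Y) (Subgroup.mem_map_of_mem _ (hJ2 hg₁mem))
    have h2 : g₁ * t = t * g₁ := Subtype.ext h1
    have h3 := (hcomm g₁ t).mp h2
    rw [hg₁c.1, hg₁c.2, one_mul] at h3
    rw [h3]
    simp
  obtain ⟨v₁, hv₁⟩ : ∃ v₁ : ↥(T : Subgroup Y), (v₁ : Y) = e.symm (tr ![1, 0] * dg (uMat 0)) :=
    ⟨⟨_, hmemT ![1, 0] 0⟩, rfl⟩
  have hv₁c : cz (v₁ : Y) = ![1, 0] ∧ cs (v₁ : Y) = 0 := by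
    rw [hv₁]; exact hel _ _
  have hv₁Z : (v₁ : Y) ∈ Cfsg.centerThompsonAOf (T : Subgroup Y) := by
    unfold Cfsg.centerThompsonAOf Cfsg.thompsonSubgroupAOf
    rw [Subgroup.mem_inf]
    refine ⟨Subgroup.mem_map_of_mem _ (hJ1 ((hVT v₁).mpr hv₁c.2)), ?_⟩
    rw [Subgroup.mem_centralizer_iff]
    rintro _ ⟨x, hx, rfl⟩
    have h1 : x * v₁ = v₁ * x := by
      rw [hcomm, hv₁c.1, hv₁c.2]
      simp
    exact congrArg Subtype.val h1
  -- the contradiction
  intro hctl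
  obtain ⟨T', hZT', hall⟩ := hctl
  obtain ⟨w, hw⟩ : ∃ w : Matrix.SpecialLinearGroup (Fin 2) (ZMod p), w.1 = !![0, -1; 1, 0] :=
    ⟨⟨!![0, -1; 1, 0], by rw [Matrix.det_fin_two_of]; ring⟩, rfl⟩
  obtain ⟨g, hg⟩ : ∃ g : Y, e g = dg w := ⟨e.symm (dg w), e.apply_symm_apply _⟩
  have hconj : g * (v₁ : Y) * g⁻¹ = e.symm (tr ![0, 1] * dg (uMat 0)) := by
    apply e.injective
    rw [map_mul, map_mul, map_inv, hg, hv₁, e.apply_symm_apply, e.apply_symm_apply, uMat_zero,
      dg_one, mul_one, mul_one, dg_mul_tr, mul_inv_cancel_right]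
    congr 1
    rw [hw]
    ext i
    fin_cases i <;> simp [Matrix.mulVec, dotProduct, Fin.sum_univ_two]
  have hkerT' : β.ker ≤ (T' : Subgroup Y) :=
    Cfsg.Agent.Lib.Helper16.Basic.normal_isPGroup_le_sylow (MonoidHom.normal_ker β) hkerp T'
  have hA : ({(v₁ : Y)} : Set Y) ⊆ (T' : Subgroup Y) := by
    intro a ha
    rw [Set.mem_singleton_iff] at ha
    rw [ha]
    exact hZT' hv₁Z
  obtain ⟨-, hfus⟩ := hall _ hA
  have himg : (fun a => g * a * g⁻¹) '' ({(v₁ : Y)} : Set Y) ⊆ (T' : Subgroup Y) := by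
    rintro _ ⟨a, ha, rfl⟩
    rw [Set.mem_singleton_iff] at ha
    rw [ha]
    apply hkerT'
    show g * (v₁ : Y) * g⁻¹ ∈ β.ker
    rw [hconj, MonoidHom.mem_ker, hβ, e.apply_symm_apply, map_mul, blk_tr, one_mul, blk_dg,
      uMat_zero]
  obtain ⟨x, hx, hxa⟩ := hfus g himg
  have h1 := hxa (v₁ : Y) rfl
  have h2 : x * (v₁ : Y) * x⁻¹ ∈ Cfsg.centerThompsonAOf (T : Subgroup Y) :=
    (Subgroup.mem_normalizer_iff.mp hx _).mp hv₁Z
  rw [← h1, hconj] at h2
  obtain ⟨t, ht, htz⟩ := hZ2 _ h2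
  rw [ht, (hel _ _).1] at htz
  simp at htz

end Cfsg.Agent.Lib.Helper16.QuadSec
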