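import Mathlib
import Cfsg.Agent.Lib.Helper16.PSL2A4
import Cfsg.Agent.Lib.Helper16.S4Elts

/-!
# The normalizer of a quaternion subgroup of `GL₂(F)`

Matrix lemmas on a pair `I`, `J` of anticommuting square roots of `-1`.
-/

set_option autoImplicit false

namespace Cfsg.Agent.Lib.Helper16.QuatNorm

open Cfsg.Agent.Lib.Helper16.PSL2A4

variable {F : Type*} [Field F]


theorem aux1 (a b c d e f g h : F)
    (p1 : (a * e + b * g) * a + (a * f + b * h) * c = e)
    (p2 : (a * e + b * g) * b + (a * f + b * h) * d = f)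
    (p3 : (c * e + d * g) * a + (c * f + d * h) * c = g)
    (p4 : (c * e + d * g) * b + (c * f + d * h) * d = h) :
    (e * h - f * g) * ((a * d - b * c - 1) * (a * d - b * c + 1)) = 0 := by
  grind

theorem aux2 (a b c d e f g h : F)
    (p1 : (a * e + b * g) * a + (a * f + b * h) * c = e)
    (p2 : (a * e + b * g) * b + (a * f + b * h) * d = f)
    (p3 : (c * e + d * g) * a + (c * f + d * h) * c = g)
    (p4 : (c * e + d * g) * b + (c * f + d * h) * d = h) :
    (e * h - f * g) * ((a + d) * (a * d - b * c - 1)) = 0 := by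
  grind

theorem aux3 (a b c d : F) (hd : a * d - b * c - 1 = 0)
    (q1 : (a * a + b * c) * (a * a + b * c) + (a * b + b * d) * (c * a + d * c) = 1)
    (q2 : (a * a + b * c) * (a * b + b * d) + (a * b + b * d) * (c * b + d * d) = 0)
    (q3 : (c * a + d * c) * (a * a + b * c) + (c * b + d * d) * (c * a + d * c) = 0)
    (q4 : (c * a + d * c) * (a * b + b * d) + (c * b + d * d) * (c * b + d * d) = 1) :
    (a + d) * (((a + d) ^ 2 - 2) * a - (a + d)) = 0 ∧ (a + d) * (((a + d) ^ 2 - 2) * b) = 0 ∧
    (a + d) * (((a + d) ^ 2 - 2) * c) = 0 ∧ (a + d) * (((a + d) ^ 2 - 2) * d - (a + d)) = 0 := by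
  refine ⟨?_, ?_, ?_, ?_⟩ <;> grind

theorem aux4 (a b c e f g : F) (ha : a * a + b * c = -1)
    (p1 : (a * e + b * g) * a + (a * f + b * -e) * c = e)
    (p2 : (a * e + b * g) * b + (a * f + b * -e) * -a = f)
    (p3 : (c * e + -a * g) * a + (c * f + -a * -e) * c = g)
    (p4 : (c * e + -a * g) * b + (c * f + -a * -e) * -a = -e)
    (hJ : e * e + f * g = -1) : 2 * a * e + b * g + c * f = 0 := by
  grind

/-- an element of order four inverted by an invertible matrix has trace zero and determinant one -/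
theorem quat_i (h2 : (2 : F) ≠ 0) (a b c d e f g h : F) (hJ : e * h - f * g ≠ 0)
    (hIJI : (!![a, b; c, d] * !![e, f; g, h] * !![a, b; c, d] : Matrix (Fin 2) (Fin 2) F) =
      !![e, f; g, h])
    (hI4 : (!![a, b; c, d] * !![a, b; c, d] * (!![a, b; c, d] * !![a, b; c, d]) :
      Matrix (Fin 2) (Fin 2) F) = 1)
    (hI2 : (!![a, b; c, d] * !![a, b; c, d] : Matrix (Fin 2) (Fin 2) F) ≠ 1) :
    d = -a ∧ a * a + b * c = -1 := by
  rw [Matrix.mul_fin_two, Matrix.mul_fin_two] at hIJI
  obtain ⟨p1, p2, p3, p4⟩ := mat_entries hIJI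
  rw [Matrix.mul_fin_two, Matrix.mul_fin_two, Matrix.one_fin_two] at hI4
  obtain ⟨q1, q2, q3, q4⟩ := mat_entries hI4
  have hI2' : ¬ (a * a + b * c = 1 ∧ a * b + b * d = 0 ∧ c * a + d * c = 0 ∧
      c * b + d * d = 1) := by
    rintro ⟨e1, e2, e3, e4⟩
    apply hI2
    rw [Matrix.mul_fin_two, Matrix.one_fin_two]
    exact mat_eq e1 e2 e3 e4
  have hdet2 : (a * d - b * c - 1) * (a * d - b * c + 1) = 0 := by
    have h1 : (e * h - f * g) * ((a * d - b * c - 1) * (a * d - b * c + 1)) = 0 :=
      aux1 a b c d e f g h p1 p2 p3 p4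
    exact (mul_eq_zero.mp h1).resolve_left hJ
  have htr : (a + d) * (a * d - b * c - 1) = 0 := by
    have h1 : (e * h - f * g) * ((a + d) * (a * d - b * c - 1)) = 0 :=
      aux2 a b c d e f g h p1 p2 p3 p4
    exact (mul_eq_zero.mp h1).resolve_left hJ
  rcases mul_eq_zero.mp hdet2 with hd | hd
  · -- determinant one
    have ht : a + d = 0 := by
      by_contra ht
      obtain ⟨g1, g2, g3, g4⟩ := aux3 a b c d hd q1 q2 q3 q4
      have k1 := (mul_eq_zero.mp g1).resolve_left ht
      have k2 := (mul_eq_zero.mp g2).resolve_left ht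
      have k3 := (mul_eq_zero.mp g3).resolve_left ht
      have k4 := (mul_eq_zero.mp g4).resolve_left ht
      have hne : (a + d) ^ 2 - 2 ≠ 0 := by
        intro h0
        rw [h0, zero_mul, zero_sub, neg_eq_zero] at k1
        exact ht k1
      have hb : b = 0 := (mul_eq_zero.mp k2).resolve_left hne
      have hc : c = 0 := (mul_eq_zero.mp k3).resolve_left hne
      have had : a = d := by
        have h5 : ((a + d) ^ 2 - 2) * (a - d) = 0 := by linear_combination k1 - k4
        exact sub_eq_zero.mp ((mul_eq_zero.mp h5).resolve_left hne)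
      subst hb hc had
      have ha2 : a * a = 1 := by
        by_contra hne1
        have hne2 : a * a - 1 ≠ 0 := sub_ne_zero.mpr hne1
        have r1 : (a * a - 1) * e = 0 := by linear_combination p1
        have r2 : (a * a - 1) * f = 0 := by linear_combination p2
        have r3 : (a * a - 1) * g = 0 := by linear_combination p3
        have r4 : (a * a - 1) * h = 0 := by linear_combination p4
        have he := (mul_eq_zero.mp r1).resolve_left hne2
        have hf := (mul_eq_zero.mp r2).resolve_left hne2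
        apply hJ
        rw [he, hf]
        ring
      exact hI2' ⟨by linear_combination ha2, by ring, by ring, by linear_combination ha2⟩
    have hd' : d = -a := by linear_combination ht
    subst hd'
    exact ⟨rfl, by linear_combination (-1) * hd⟩
  · -- determinant minus one
    exfalso
    have ht : a + d = 0 := by
      have h1 : (a + d) * 2 = 0 := by linear_combination (-1) * htr + (a + d) * hd
      exact (mul_eq_zero.mp h1).resolve_right h2
    have hd' : d = -a := by linear_combination ht
    subst hd'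
    exact hI2' ⟨by linear_combination (-1) * hd, by ring, by ring, by linear_combination (-1) * hd⟩

/-- the second generator -/
theorem quat_j (h2 : (2 : F) ≠ 0) (a b c e f g h : F) (ha : a * a + b * c = -1)
    (hIJI : (!![a, b; c, -a] * !![e, f; g, h] * !![a, b; c, -a] : Matrix (Fin 2) (Fin 2) F) =
      !![e, f; g, h])
    (hJ2 : (!![e, f; g, h] * !![e, f; g, h] : Matrix (Fin 2) (Fin 2) F) =
      !![a, b; c, -a] * !![a, b; c, -a]) :
    h = -e ∧ e * e + f * g = -1 ∧ 2 * a * e + b * g + c * f = 0 := by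
  rw [Matrix.mul_fin_two, Matrix.mul_fin_two] at hIJI
  obtain ⟨p1, p2, p3, p4⟩ := mat_entries hIJI
  rw [Matrix.mul_fin_two, Matrix.mul_fin_two] at hJ2
  obtain ⟨q1, q2, q3, q4⟩ := mat_entries hJ2
  have ht : e + h = 0 := by
    by_contra ht
    have hf : f = 0 := by
      have h1 : (e + h) * f = 0 := by linear_combination q2
      exact (mul_eq_zero.mp h1).resolve_left ht
    have hg : g = 0 := by
      have h1 : (e + h) * g = 0 := by linear_combination q3
      exact (mul_eq_zero.mp h1).resolve_left ht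
    subst hf hg
    have heh : e = h := by
      have h1 : (e + h) * (e - h) = 0 := by linear_combination q1 - q4
      exact sub_eq_zero.mp ((mul_eq_zero.mp h1).resolve_left ht)
    subst heh
    have he0 : e ≠ 0 := by
      rintro rfl
      apply ht
      ring
    have h3 : e * 2 = 0 := by linear_combination (-1) * p1 + e * ha
    rcases mul_eq_zero.mp h3 with h4 | h4
    · exact he0 h4
    · exact h2 h4
  have hh : h = -e := by linear_combination ht
  subst hh
  have hJ : e * e + f * g = -1 := by linear_combination q1 + ha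
  exact ⟨rfl, hJ, aux4 a b c e f g ha p1 p2 p3 p4 hJ⟩

/-! ### the element of order three -/

theorem omega_det (a b c e f g k : F) (ha : a * a + b * c = -1) (he : e * e + f * g = -1)
    (hij : 2 * a * e + b * g + c * f = 0) (hk : 2 * k = 1) :
    (!![k * (-1 + a + e + (a * e + b * g)), k * (b + f + (a * f - b * e));
      k * (c + g + (c * e - a * g)), k * (-1 - a - e + (c * f + a * e))] :
      Matrix (Fin 2) (Fin 2) F).det = 1 := by
  rw [Matrix.det_fin_two_of]
  grind

theorem omega_mul_i (a b c e f g k : F) (ha : a * a + b * c = -1) (he : e * e + f * g = -1)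
    (hij : 2 * a * e + b * g + c * f = 0) (hk : 2 * k = 1) :
    (!![k * (-1 + a + e + (a * e + b * g)), k * (b + f + (a * f - b * e));
      k * (c + g + (c * e - a * g)), k * (-1 - a - e + (c * f + a * e))] :
      Matrix (Fin 2) (Fin 2) F) * !![a, b; c, -a] =
    !![a, b; c, -a] * !![e, f; g, -e] *
      !![k * (-1 + a + e + (a * e + b * g)), k * (b + f + (a * f - b * e));
      k * (c + g + (c * e - a * g)), k * (-1 - a - e + (c * f + a * e))] := by
  rw [Matrix.mul_fin_two, Matrix.mul_fin_two, Matrix.mul_fin_two]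
  apply mat_eq <;> grind

theorem omega_mul_j (a b c e f g k : F) (ha : a * a + b * c = -1) (he : e * e + f * g = -1)
    (hij : 2 * a * e + b * g + c * f = 0) (hk : 2 * k = 1) :
    (!![k * (-1 + a + e + (a * e + b * g)), k * (b + f + (a * f - b * e));
      k * (c + g + (c * e - a * g)), k * (-1 - a - e + (c * f + a * e))] :
      Matrix (Fin 2) (Fin 2) F) * !![e, f; g, -e] =
    !![a, b; c, -a] *
      !![k * (-1 + a + e + (a * e + b * g)), k * (b + f + (a * f - b * e));
      k * (c + g + (c * e - a * g)), k * (-1 - a - e + (c * f + a * e))] := by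
  rw [Matrix.mul_fin_two, Matrix.mul_fin_two]
  apply mat_eq <;> grind

/-- a matrix commuting with `I` and `J` is scalar -/
theorem scalar_of_comm (a b c e f g k y1 y2 y3 y4 : F) (ha : a * a + b * c = -1)
    (he : e * e + f * g = -1) (hij : 2 * a * e + b * g + c * f = 0) (hk : 2 * k = 1)
    (hI : (!![y1, y2; y3, y4] : Matrix (Fin 2) (Fin 2) F) * !![a, b; c, -a] =
      !![a, b; c, -a] * !![y1, y2; y3, y4])
    (hJ : (!![y1, y2; y3, y4] : Matrix (Fin 2) (Fin 2) F) * !![e, f; g, -e] =
      !![e, f; g, -e] * !![y1, y2; y3, y4]) : y2 = 0 ∧ y3 = 0 ∧ y1 = y4 := by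
  rw [Matrix.mul_fin_two, Matrix.mul_fin_two] at hI hJ
  obtain ⟨p1, p2, p3, p4⟩ := mat_entries hI
  obtain ⟨q1, q2, q3, q4⟩ := mat_entries hJ
  clear hI hJ
  refine ⟨?_, ?_, ?_⟩ <;> grind

/-! ### elements with scalar square or cube -/

theorem smul_one_fin_two (z : F) :
    z • (1 : Matrix (Fin 2) (Fin 2) F) = !![z, 0; 0, z] := by
  ext i j
  fin_cases i <;> fin_cases j <;> simp

theorem tr_of_sq_scalar (p q r s z : F)
    (hsq : (!![p, q; r, s] : Matrix (Fin 2) (Fin 2) F) * !![p, q; r, s] = !![z, 0; 0, z])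
    (hns : ¬ (q = 0 ∧ r = 0 ∧ p = s)) : p + s = 0 := by
  rw [Matrix.mul_fin_two] at hsq
  obtain ⟨c1, c2, c3, c4⟩ := mat_entries hsq
  by_contra ht
  apply hns
  have hq : q = 0 := by
    have h1 : (p + s) * q = 0 := by linear_combination c2
    exact (mul_eq_zero.mp h1).resolve_left ht
  have hr : r = 0 := by
    have h1 : (p + s) * r = 0 := by linear_combination c3
    exact (mul_eq_zero.mp h1).resolve_left ht
  refine ⟨hq, hr, ?_⟩
  have h1 : (p + s) * (p - s) = 0 := by linear_combination c1 - c4
  exact sub_eq_zero.mp ((mul_eq_zero.mp h1).resolve_left ht)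

theorem aux_cube (p q r s z : F) (hdet : p * s - q * r = 1)
    (c1 : (p * p + q * r) * p + (p * q + q * s) * r = z)
    (c2 : (p * p + q * r) * q + (p * q + q * s) * s = 0)
    (c3 : (r * p + s * r) * p + (r * q + s * s) * r = 0)
    (c4 : (r * p + s * r) * q + (r * q + s * s) * s = z) :
    ((p + s) ^ 2 - 1) * q = 0 ∧ ((p + s) ^ 2 - 1) * r = 0 ∧ ((p + s) ^ 2 - 1) * (p - s) = 0 := by
  refine ⟨?_, ?_, ?_⟩ <;> grind

theorem tr_of_cube_scalar (p q r s z : F) (hdet : p * s - q * r = 1)
    (hcu : (!![p, q; r, s] : Matrix (Fin 2) (Fin 2) F) * !![p, q; r, s] * !![p, q; r, s] =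
      !![z, 0; 0, z])
    (hns : ¬ (q = 0 ∧ r = 0 ∧ p = s)) : p + s = 1 ∨ p + s = -1 := by
  rw [Matrix.mul_fin_two, Matrix.mul_fin_two] at hcu
  obtain ⟨c1, c2, c3, c4⟩ := mat_entries hcu
  obtain ⟨g1, g2, g3⟩ := aux_cube p q r s z hdet c1 c2 c3 c4
  have ht : (p + s) ^ 2 - 1 = 0 := by
    by_contra ht
    apply hns
    exact ⟨(mul_eq_zero.mp g1).resolve_left ht, (mul_eq_zero.mp g2).resolve_left ht,
      sub_eq_zero.mp ((mul_eq_zero.mp g3).resolve_left ht)⟩
  have h1 : (p + s - 1) * (p + s + 1) = 0 := by linear_combination ht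
  rcases mul_eq_zero.mp h1 with h | h
  · left
    linear_combination h
  · right
    linear_combination h

end Cfsg.Agent.Lib.Helper16.QuatNorm
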