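import Mathlib
import Cfsg.Prelude.Def_GeometricClasses
import Cfsg.Agent.Lib.Helper16.QuatNorm

/-!
# The normalizer of a quaternion subgroup of `GL₂(F)`: the group-theoretic data

* `quat_data`: matrices of the generators of a subgroup of `GL₂(F)` isomorphic to `Q₈`.
* `bridge`: passing from conjugacy in `SL₂(F)` to the statement about `GL₂(F)`.
-/

set_option autoImplicit false

namespace Cfsg.Agent.Lib.Helper16.QuatNorm

open Cfsg.Agent.Lib.Helper16.PSL2A4 Cfsg.Agent.Lib.Helper14.SL2Odd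
  Cfsg.Agent.Lib.Helper14.GL2Conj Cfsg.Agent.Lib.Helper16.SL2Four
open QuaternionGroup

variable {F : Type*} [Field F]

theorem q8_rel : (xa (0 : ZMod (2 * 2)) : QuaternionGroup 2) * a 1 * (xa 0)⁻¹ = (a 1)⁻¹ ∧
    (xa (0 : ZMod (2 * 2)) : QuaternionGroup 2) * xa 0 = a 1 * a 1 ∧
    (a (1 : ZMod (2 * 2)) : QuaternionGroup 2) * a 1 * (a 1 * a 1) = 1 ∧
    (a (1 : ZMod (2 * 2)) : QuaternionGroup 2) * a 1 ≠ 1 := by
  decide

theorem q8_elts : ∀ q : QuaternionGroup 2, ∃ k : Fin 4,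
    q = a 1 ^ (k : ℕ) ∨ q = xa 0 * a 1 ^ (k : ℕ) := by
  decide

theorem q8_sq : ∀ q : QuaternionGroup 2, q * q = a 1 * a 1 →
    (q = a 1 ∨ q = (a 1)⁻¹) ∨ (q = xa 0 ∨ q = (xa 0)⁻¹) ∨
      (q = xa 0 * a 1 ∨ q = (xa 0 * a 1)⁻¹) := by
  decide

theorem pigeon : ∀ f : Fin 4 → Fin 3, ∃ a b : Fin 4, a < b ∧ f a = f b := by
  decide

/-- the generators of a quaternion subgroup of `GL₂(F)` -/
theorem quat_data (h2 : (2 : F) ≠ 0) (R : Subgroup (GL (Fin 2) F))
    (e : ↥R ≃* QuaternionGroup 2) :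
    ∃ (i j : GL (Fin 2) F) (a b c e' f g : F), i ∈ R ∧ j ∈ R ∧
      (i : Matrix (Fin 2) (Fin 2) F) = !![a, b; c, -a] ∧
      (j : Matrix (Fin 2) (Fin 2) F) = !![e', f; g, -e'] ∧
      a * a + b * c = -1 ∧ e' * e' + f * g = -1 ∧ 2 * a * e' + b * g + c * f = 0 ∧
      (∀ ρ ∈ R, ∃ k : ℕ, ρ = i ^ k ∨ ρ = j * i ^ k) ∧
      (∀ u ∈ R, u * u = i * i →
        (u = i ∨ u = i⁻¹) ∨ (u = j ∨ u = j⁻¹) ∨ (u = j * i ∨ u = (j * i)⁻¹)) := by
  obtain ⟨i, hi⟩ : ∃ i : GL (Fin 2) F, i = ((e.symm (a 1) : ↥R) : GL (Fin 2) F) := ⟨_, rfl⟩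
  obtain ⟨j, hj⟩ : ∃ j : GL (Fin 2) F, j = ((e.symm (xa 0) : ↥R) : GL (Fin 2) F) := ⟨_, rfl⟩
  have hiR : i ∈ R := by rw [hi]; exact (e.symm (a 1)).2
  have hjR : j ∈ R := by rw [hj]; exact (e.symm (xa 0)).2
  obtain ⟨q1, q2, q3, q4⟩ := q8_rel
  have r1 : j * i * j⁻¹ = i⁻¹ := by
    have := congrArg (fun q => ((e.symm q : ↥R) : GL (Fin 2) F)) q1
    rw [hi, hj]
    simp only [map_mul, map_inv, map_pow, map_one, Subgroup.coe_mul, Subgroup.coe_inv,
      Subgroup.coe_pow, Subgroup.coe_one] at this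
    exact this
  have r2 : j * j = i * i := by
    have := congrArg (fun q => ((e.symm q : ↥R) : GL (Fin 2) F)) q2
    rw [hi, hj]
    simp only [map_mul, map_inv, map_pow, map_one, Subgroup.coe_mul, Subgroup.coe_inv,
      Subgroup.coe_pow, Subgroup.coe_one] at this
    exact this
  have r3 : i * i * (i * i) = 1 := by
    have := congrArg (fun q => ((e.symm q : ↥R) : GL (Fin 2) F)) q3
    rw [hi]
    simp only [map_mul, map_inv, map_pow, map_one, Subgroup.coe_mul, Subgroup.coe_inv,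
      Subgroup.coe_pow, Subgroup.coe_one] at this
    exact this
  have r4 : i * i ≠ 1 := by
    intro h
    apply q4
    rw [hi] at h
    have h' : e.symm (a 1) * e.symm (a 1) = 1 := Subtype.ext h
    have := congrArg e h'
    rw [map_mul, e.apply_symm_apply, map_one] at this
    exact this
  have r5 : i * j * i = j := by
    calc i * j * i = i * (j * i * j⁻¹) * j := by group
      _ = i * i⁻¹ * j := by rw [r1]
      _ = j := by group
  -- matrices
  obtain ⟨a', b', c', d', hI⟩ : ∃ a' b' c' d' : F,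
      (i : Matrix (Fin 2) (Fin 2) F) = !![a', b'; c', d'] := ⟨_, _, _, _, Matrix.eta_fin_two _⟩
  obtain ⟨e', f', g', h', hJ⟩ : ∃ e' f' g' h' : F,
      (j : Matrix (Fin 2) (Fin 2) F) = !![e', f'; g', h'] := ⟨_, _, _, _, Matrix.eta_fin_two _⟩
  have hdJ : e' * h' - f' * g' ≠ 0 := by
    have h1 := ((Matrix.isUnit_iff_isUnit_det _).mp j.isUnit).ne_zero
    rw [hJ, Matrix.det_fin_two_of] at h1
    exact h1
  have m5 : (!![a', b'; c', d'] * !![e', f'; g', h'] * !![a', b'; c', d'] :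
      Matrix (Fin 2) (Fin 2) F) = !![e', f'; g', h'] := by
    have := congrArg Units.val r5
    rw [Units.val_mul, Units.val_mul, hI, hJ] at this
    exact this
  have m3 : (!![a', b'; c', d'] * !![a', b'; c', d'] * (!![a', b'; c', d'] * !![a', b'; c', d']) :
      Matrix (Fin 2) (Fin 2) F) = 1 := by
    have := congrArg Units.val r3
    rw [Units.val_mul, Units.val_mul, hI] at this
    exact this
  have m4 : (!![a', b'; c', d'] * !![a', b'; c', d'] : Matrix (Fin 2) (Fin 2) F) ≠ 1 := by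
    intro h
    apply r4
    apply Units.ext
    rw [Units.val_mul, hI, h]
    rfl
  obtain ⟨hd, ha⟩ := quat_i h2 a' b' c' d' e' f' g' h' hdJ m5 m3 m4
  subst hd
  have m2 : (!![e', f'; g', h'] * !![e', f'; g', h'] : Matrix (Fin 2) (Fin 2) F) =
      !![a', b'; c', -a'] * !![a', b'; c', -a'] := by
    have := congrArg Units.val r2
    rw [Units.val_mul, Units.val_mul, hI, hJ] at this
    exact this
  obtain ⟨hh, he, hij⟩ := quat_j h2 a' b' c' e' f' g' h' ha m5 m2
  subst hh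
  refine ⟨i, j, a', b', c', e', f', g', hiR, hjR, hI, hJ, ha, he, hij, ?_, ?_⟩
  · intro ρ hρ
    obtain ⟨k, hk⟩ := q8_elts (e ⟨ρ, hρ⟩)
    refine ⟨(k : ℕ), ?_⟩
    rcases hk with hk | hk
    · left
      have h3 := congrArg (fun q => ((e.symm q : ↥R) : GL (Fin 2) F)) hk
      simp only [map_pow, Subgroup.coe_pow, e.symm_apply_apply] at h3
      rw [hi]
      exact h3
    · right
      have h3 := congrArg (fun q => ((e.symm q : ↥R) : GL (Fin 2) F)) hk
      simp only [map_mul, map_pow, Subgroup.coe_mul, Subgroup.coe_pow, e.symm_apply_apply] at h3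
      rw [hi, hj]
      exact h3
  · intro u hu huu
    have h1 : e ⟨u, hu⟩ * e ⟨u, hu⟩ = a 1 * a 1 := by
      have h2' : (⟨u, hu⟩ : ↥R) * ⟨u, hu⟩ = e.symm (a 1) * e.symm (a 1) := by
        apply Subtype.ext
        rw [hi] at huu
        exact huu
      have := congrArg e h2'
      rw [map_mul, map_mul, e.apply_symm_apply] at this
      exact this
    have key : ∀ q : QuaternionGroup 2, e ⟨u, hu⟩ = q → u = ((e.symm q : ↥R) : GL (Fin 2) F) := by
      intro q hq
      rw [← hq, e.symm_apply_apply]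
    rcases q8_sq _ h1 with (h | h) | (h | h) | (h | h)
    · left; left
      rw [key _ h, hi]
    · left; right
      rw [key _ h, hi]
      simp only [map_mul, map_inv, Subgroup.coe_mul, Subgroup.coe_inv]
    · right; left; left
      rw [key _ h, hj]
    · right; left; right
      rw [key _ h, hj]
      simp only [map_mul, map_inv, Subgroup.coe_mul, Subgroup.coe_inv]
    · right; right; left
      rw [key _ h, hi, hj]
      simp only [map_mul, map_inv, Subgroup.coe_mul, Subgroup.coe_inv]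
    · right; right; right
      rw [key _ h, hi, hj]
      simp only [map_mul, map_inv, Subgroup.coe_mul, Subgroup.coe_inv]

end Cfsg.Agent.Lib.Helper16.QuatNorm
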