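import Mathlib
import Cfsg.Agent.Lib.Helper16.QuatNorm2

/-!
# The normalizer of a quaternion subgroup of `GL₂(F)`: elements of prime order

* `quat_sufficient2`, `quat_sufficient3`: elements of `SL₂(F)` of order two or three modulo
  scalars are conjugate into the normalizer.
* `quat_necessary`: the normalizer contains no element of `SL₂(F)` of prime order at least five.
-/

set_option autoImplicit false

namespace Cfsg.Agent.Lib.Helper16.QuatNorm

open Cfsg.Agent.Lib.Helper16.PSL2A4 Cfsg.Agent.Lib.Helper14.SL2Odd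
  Cfsg.Agent.Lib.Helper14.GL2Conj Cfsg.Agent.Lib.Helper16.SL2Four
  Cfsg.Agent.Lib.Helper16.S4Elts

variable {F : Type*} [Field F]

theorem toGL_mem (S : Matrix.SpecialLinearGroup (Fin 2) F) :
    Matrix.SpecialLinearGroup.toGL S ∈ Cfsg.Geo.specialLinear (Fin 2) F :=
  MonoidHom.mem_ker.mpr (Units.ext S.det_coe)

theorem det_of_mem {x : GL (Fin 2) F} (hx : x ∈ Cfsg.Geo.specialLinear (Fin 2) F) :
    (x : Matrix (Fin 2) (Fin 2) F).det = 1 :=
  congrArg Units.val (MonoidHom.mem_ker.mp hx)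

theorem bridge (R : Subgroup (GL (Fin 2) F)) (x : GL (Fin 2) F)
    (X Y : Matrix.SpecialLinearGroup (Fin 2) F)
    (hX : Matrix.SpecialLinearGroup.toGL X = x) (hconj : IsConj X Y)
    (hY : Matrix.SpecialLinearGroup.toGL Y ∈ Subgroup.normalizer (R : Set (GL (Fin 2) F))) :
    ∃ g ∈ Cfsg.Geo.specialLinear (Fin 2) F, g⁻¹ * x * g ∈ Cfsg.Geo.subgroupNormalizer R := by
  obtain ⟨c, hc⟩ := isConj_iff.mp hconj
  refine ⟨(Matrix.SpecialLinearGroup.toGL c)⁻¹, inv_mem (toGL_mem c), ?_⟩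
  rw [inv_inv, ← hX, ← map_inv, ← map_mul, ← map_mul, hc]
  exact hY

theorem not_scalar_iff (p q r s : F) :
    (∀ z : F, (!![p, q; r, s] : Matrix (Fin 2) (Fin 2) F) ≠ z • (1 : Matrix (Fin 2) (Fin 2) F)) ↔
      ¬ (q = 0 ∧ r = 0 ∧ p = s) := by
  constructor
  · rintro h ⟨rfl, rfl, rfl⟩
    exact h p (by rw [smul_one_fin_two])
  · intro h z hz
    rw [smul_one_fin_two] at hz
    obtain ⟨e1, e2, e3, e4⟩ := mat_entries hz
    exact h ⟨e2, e3, e1.trans e4.symm⟩

/-- elements of order two modulo scalars -/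
theorem quat_sufficient2 [Fintype F] (hodd : Fintype.card F % 2 = 1)
    (R : Subgroup (GL (Fin 2) F)) (e : ↥R ≃* QuaternionGroup 2)
    (x : GL (Fin 2) F) (hx : x ∈ Cfsg.Geo.specialLinear (Fin 2) F)
    (hz : ∃ z : F, ((x ^ 2 : GL (Fin 2) F) : Matrix (Fin 2) (Fin 2) F) =
      z • (1 : Matrix (Fin 2) (Fin 2) F))
    (hns : ∀ z : F, (x : Matrix (Fin 2) (Fin 2) F) ≠ z • (1 : Matrix (Fin 2) (Fin 2) F)) :
    ∃ g ∈ Cfsg.Geo.specialLinear (Fin 2) F, g⁻¹ * x * g ∈ Cfsg.Geo.subgroupNormalizer R := by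
  have h2 : (2 : F) ≠ 0 := two_ne_zero_of_odd hodd
  obtain ⟨i, j, a, b, c, e', f, g, hiR, hjR, hI, hJ, ha, he, hij, -, -⟩ := quat_data h2 R e
  have hdet := det_of_mem hx
  obtain ⟨X, hX⟩ : ∃ X : Matrix.SpecialLinearGroup (Fin 2) F,
      (X : Matrix (Fin 2) (Fin 2) F) = (x : Matrix (Fin 2) (Fin 2) F) := ⟨⟨_, hdet⟩, rfl⟩
  have hXx : Matrix.SpecialLinearGroup.toGL X = x := Units.ext hX
  obtain ⟨p, q, r, s, hxm⟩ : ∃ p q r s : F,
      (x : Matrix (Fin 2) (Fin 2) F) = !![p, q; r, s] := ⟨_, _, _, _, Matrix.eta_fin_two _⟩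
  obtain ⟨z, hz⟩ := hz
  rw [Units.val_pow_eq_pow_val, pow_two, hxm, smul_one_fin_two] at hz
  rw [hxm, not_scalar_iff] at hns
  have htr := tr_of_sq_scalar p q r s z hz hns
  have hX2 : X * X = negOne := by
    rw [sq_negOne_iff]
    unfold tr2
    rw [hX, hxm]
    exact htr
  have hdI : (!![a, b; c, -a] : Matrix (Fin 2) (Fin 2) F).det = 1 := by
    rw [Matrix.det_fin_two_of]
    linear_combination (-1) * ha
  obtain ⟨I, hIm⟩ : ∃ I : Matrix.SpecialLinearGroup (Fin 2) F,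
      (I : Matrix (Fin 2) (Fin 2) F) = !![a, b; c, -a] := ⟨⟨_, hdI⟩, rfl⟩
  have hI2 : I * I = negOne := by
    rw [sq_negOne_iff]
    unfold tr2
    rw [hIm]
    show a + -a = 0
    ring
  have hIi : Matrix.SpecialLinearGroup.toGL I = i := Units.ext (hIm.trans hI.symm)
  refine bridge R x X I hXx (isConj_of_sq hodd X I hX2 hI2) ?_
  rw [hIi]
  exact Subgroup.le_normalizer hiR

theorem negOne_toGL_comm (g : GL (Fin 2) F) :
    Matrix.SpecialLinearGroup.toGL (negOne : Matrix.SpecialLinearGroup (Fin 2) F) * g =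
      g * Matrix.SpecialLinearGroup.toGL negOne := by
  obtain ⟨p, q, r, s, hg⟩ : ∃ p q r s : F,
      (g : Matrix (Fin 2) (Fin 2) F) = !![p, q; r, s] := ⟨_, _, _, _, Matrix.eta_fin_two _⟩
  apply Units.ext
  rw [Units.val_mul, Units.val_mul, hg]
  show (!![-1, 0; 0, -1] : Matrix (Fin 2) (Fin 2) F) * !![p, q; r, s] =
    !![p, q; r, s] * !![-1, 0; 0, -1]
  rw [Matrix.mul_fin_two, Matrix.mul_fin_two]
  apply mat_eq <;> ring

theorem aux_ns (u v : F) (huv : u = v) (hd : u * v = 1) (ht : u + v = 1 ∨ u + v = -1) :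
    (3 : F) = 0 := by
  rcases ht with h | h <;> grind

theorem not_scalar_of_tr (h3 : (3 : F) ≠ 0) (S : Matrix.SpecialLinearGroup (Fin 2) F)
    (ht : tr2 S = 1 ∨ tr2 S = -1) : ¬ IsScalarMat (S : Matrix (Fin 2) (Fin 2) F) := by
  intro hs
  rw [isScalarMat_iff] at hs
  obtain ⟨h01, h10, h00⟩ := hs
  have hdet := S.det_coe
  rw [Matrix.det_fin_two, h01, zero_mul, sub_zero] at hdet
  exact h3 (aux_ns _ _ h00 hdet ht)

/-- elements of order three modulo scalars -/
theorem quat_sufficient3 [Fintype F] (hodd : Fintype.card F % 2 = 1) (h3 : (3 : F) ≠ 0)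
    (R : Subgroup (GL (Fin 2) F)) (e : ↥R ≃* QuaternionGroup 2)
    (x : GL (Fin 2) F) (hx : x ∈ Cfsg.Geo.specialLinear (Fin 2) F)
    (hz : ∃ z : F, ((x ^ 3 : GL (Fin 2) F) : Matrix (Fin 2) (Fin 2) F) =
      z • (1 : Matrix (Fin 2) (Fin 2) F))
    (hns : ∀ z : F, (x : Matrix (Fin 2) (Fin 2) F) ≠ z • (1 : Matrix (Fin 2) (Fin 2) F)) :
    ∃ g ∈ Cfsg.Geo.specialLinear (Fin 2) F, g⁻¹ * x * g ∈ Cfsg.Geo.subgroupNormalizer R := by
  have h2 : (2 : F) ≠ 0 := two_ne_zero_of_odd hodd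
  obtain ⟨i, j, a, b, c, e', f, g, hiR, hjR, hI, hJ, ha, he, hij, hall, -⟩ := quat_data h2 R e
  have hdet := det_of_mem hx
  obtain ⟨X, hX⟩ : ∃ X : Matrix.SpecialLinearGroup (Fin 2) F,
      (X : Matrix (Fin 2) (Fin 2) F) = (x : Matrix (Fin 2) (Fin 2) F) := ⟨⟨_, hdet⟩, rfl⟩
  have hXx : Matrix.SpecialLinearGroup.toGL X = x := Units.ext hX
  obtain ⟨p, q, r, s, hxm⟩ : ∃ p q r s : F,
      (x : Matrix (Fin 2) (Fin 2) F) = !![p, q; r, s] := ⟨_, _, _, _, Matrix.eta_fin_two _⟩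
  obtain ⟨z, hz⟩ := hz
  rw [Units.val_pow_eq_pow_val, pow_succ, pow_two, hxm, smul_one_fin_two] at hz
  have hXns : ¬ IsScalarMat (X : Matrix (Fin 2) (Fin 2) F) := by
    rintro ⟨z', hz'⟩
    rw [hX] at hz'
    exact hns z' hz'
  rw [hxm, not_scalar_iff] at hns
  rw [hxm, Matrix.det_fin_two_of] at hdet
  have htr := tr_of_cube_scalar p q r s z hdet hz hns
  have hXtr : tr2 X = p + s := by
    unfold tr2
    rw [hX, hxm]
    rfl
  obtain ⟨k, hk⟩ : ∃ k : F, 2 * k = 1 := ⟨(2 : F)⁻¹, mul_inv_cancel₀ h2⟩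
  obtain ⟨W, hW⟩ : ∃ W : Matrix.SpecialLinearGroup (Fin 2) F,
      (W : Matrix (Fin 2) (Fin 2) F) =
        !![k * (-1 + a + e' + (a * e' + b * g)), k * (b + f + (a * f - b * e'));
          k * (c + g + (c * e' - a * g)), k * (-1 - a - e' + (c * f + a * e'))] :=
    ⟨⟨_, omega_det a b c e' f g k ha he hij hk⟩, rfl⟩
  have hWtr : tr2 W = -1 := by
    unfold tr2
    rw [hW]
    show k * (-1 + a + e' + (a * e' + b * g)) + k * (-1 - a - e' + (c * f + a * e')) = -1
    linear_combination k * hij - hk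
  have hωi : Matrix.SpecialLinearGroup.toGL W * i = (i * j) * Matrix.SpecialLinearGroup.toGL W := by
    apply Units.ext
    rw [Units.val_mul, Units.val_mul, Units.val_mul, hI, hJ]
    show (W : Matrix (Fin 2) (Fin 2) F) * _ = _ * (W : Matrix (Fin 2) (Fin 2) F)
    rw [hW]
    exact omega_mul_i a b c e' f g k ha he hij hk
  have hωj : Matrix.SpecialLinearGroup.toGL W * j = i * Matrix.SpecialLinearGroup.toGL W := by
    apply Units.ext
    rw [Units.val_mul, Units.val_mul, hI, hJ]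
    show (W : Matrix (Fin 2) (Fin 2) F) * _ = _ * (W : Matrix (Fin 2) (Fin 2) F)
    rw [hW]
    exact omega_mul_j a b c e' f g k ha he hij hk
  haveI : Finite ↥R := Finite.of_equiv _ e.symm.toEquiv
  have hωN : Matrix.SpecialLinearGroup.toGL W ∈ Subgroup.normalizer (R : Set (GL (Fin 2) F)) := by
    apply mem_normalizer_of_conj_mem R
    intro ρ hρ
    have hci : Matrix.SpecialLinearGroup.toGL W * i * (Matrix.SpecialLinearGroup.toGL W)⁻¹ =
        i * j := by
      rw [hωi]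
      group
    have hcj : Matrix.SpecialLinearGroup.toGL W * j * (Matrix.SpecialLinearGroup.toGL W)⁻¹ =
        i := by
      rw [hωj]
      group
    obtain ⟨n, hn | hn⟩ := hall ρ hρ
    · rw [hn, ← conj_pow, hci]
      exact R.pow_mem (R.mul_mem hiR hjR) n
    · rw [hn]
      have e1 : Matrix.SpecialLinearGroup.toGL W * (j * i ^ n) *
          (Matrix.SpecialLinearGroup.toGL W)⁻¹ =
          (Matrix.SpecialLinearGroup.toGL W * j * (Matrix.SpecialLinearGroup.toGL W)⁻¹) *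
          (Matrix.SpecialLinearGroup.toGL W * i ^ n * (Matrix.SpecialLinearGroup.toGL W)⁻¹) := by
        group
      rw [e1, hcj, ← conj_pow, hci]
      exact R.mul_mem hiR (R.pow_mem (R.mul_mem hiR hjR) n)
  rcases htr with htr | htr
  · -- trace one: use `-W`
    have hYtr : tr2 (negOne * W) = 1 := by
      unfold tr2
      rw [Matrix.SpecialLinearGroup.coe_mul, negOne_coe, hW, Matrix.mul_fin_two]
      show (-1 * (k * (-1 + a + e' + (a * e' + b * g))) + 0 * (k * (c + g + (c * e' - a * g)))) +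
        (0 * (k * (b + f + (a * f - b * e'))) + -1 * (k * (-1 - a - e' + (c * f + a * e')))) = 1
      linear_combination (-k) * hij + hk
    have hYN : Matrix.SpecialLinearGroup.toGL (negOne * W) ∈
        Subgroup.normalizer (R : Set (GL (Fin 2) F)) := by
      rw [map_mul]
      refine Subgroup.mul_mem _ ?_ hωN
      apply mem_normalizer_of_conj_mem R
      intro ρ hρ
      rw [negOne_toGL_comm ρ, mul_inv_cancel_right]
      exact hρ
    refine bridge R x X (negOne * W) hXx (conj_of_trace hodd X (negOne * W) hXns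
      (not_scalar_of_tr h3 _ (Or.inl hYtr)) (by rw [hXtr, htr, hYtr]) ?_) hYN
    rw [hXtr, htr]
    intro h
    apply h3
    linear_combination (-1) * h
  · refine bridge R x X W hXx (conj_of_trace hodd X W hXns
      (not_scalar_of_tr h3 _ (Or.inr hWtr)) (by rw [hXtr, htr, hWtr]) ?_) hωN
    rw [hXtr, htr]
    intro h
    apply h3
    linear_combination (-1) * h

/-- the normalizer has no element of determinant one and prime order at least five -/
theorem quat_necessary [Fintype F] (hodd : Fintype.card F % 2 = 1)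
    (R : Subgroup (GL (Fin 2) F)) (e : ↥R ≃* QuaternionGroup 2)
    (y : GL (Fin 2) F) (hy : y ∈ Cfsg.Geo.specialLinear (Fin 2) F)
    (hyN : y ∈ Subgroup.normalizer (R : Set (GL (Fin 2) F))) (r : ℕ) (hr : r.Prime)
    (hr5 : 5 ≤ r) (hyr : orderOf y = r) : False := by
  have h2 : (2 : F) ≠ 0 := two_ne_zero_of_odd hodd
  obtain ⟨i, j, a, b, c, e', f, g, hiR, hjR, hI, hJ, ha, he, hij, -, hsq⟩ := quat_data h2 R e
  have hii : ((i * i : GL (Fin 2) F) : Matrix (Fin 2) (Fin 2) F) = !![-1, 0; 0, -1] := by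
    rw [Units.val_mul, hI, Matrix.mul_fin_two]
    apply mat_eq
    · linear_combination ha
    · ring
    · ring
    · linear_combination ha
  have hcen : ∀ u : GL (Fin 2) F, u * (i * i) = (i * i) * u := by
    intro u
    obtain ⟨p, q, r', s, hu⟩ : ∃ p q r' s : F,
        (u : Matrix (Fin 2) (Fin 2) F) = !![p, q; r', s] := ⟨_, _, _, _, Matrix.eta_fin_two _⟩
    apply Units.ext
    have e1 : ((u * (i * i) : GL (Fin 2) F) : Matrix (Fin 2) (Fin 2) F) =
        (u : Matrix (Fin 2) (Fin 2) F) * ((i * i : GL (Fin 2) F) : Matrix (Fin 2) (Fin 2) F) := rfl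
    have e2 : (((i * i) * u : GL (Fin 2) F) : Matrix (Fin 2) (Fin 2) F) =
        ((i * i : GL (Fin 2) F) : Matrix (Fin 2) (Fin 2) F) * (u : Matrix (Fin 2) (Fin 2) F) := rfl
    rw [e1, e2, hii, hu, Matrix.mul_fin_two, Matrix.mul_fin_two]
    apply mat_eq <;> ring
  have hr2 : j * j = i * i := by
    apply Units.ext
    rw [Units.val_mul, Units.val_mul, hI, hJ, Matrix.mul_fin_two, Matrix.mul_fin_two]
    apply mat_eq
    · linear_combination he - ha
    · ring
    · ring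
    · linear_combination he - ha
  have hcomm : ∀ v ∈ R, v * v = i * i → y * v = v * y := by
    intro v hv hvv
    have hcR : ∀ n : ℕ, y ^ n * v * (y ^ n)⁻¹ ∈ R := fun n =>
      (Subgroup.mem_normalizer_iff.mp (Subgroup.pow_mem _ hyN n) v).mp hv
    have hcsq : ∀ n : ℕ, (y ^ n * v * (y ^ n)⁻¹) * (y ^ n * v * (y ^ n)⁻¹) = i * i := by
      intro n
      calc (y ^ n * v * (y ^ n)⁻¹) * (y ^ n * v * (y ^ n)⁻¹)
          = y ^ n * (v * v) * (y ^ n)⁻¹ := by group
        _ = y ^ n * (i * i) * (y ^ n)⁻¹ := by rw [hvv]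
        _ = i * i := by rw [hcen (y ^ n), mul_inv_cancel_right]
    have hax : ∀ n : Fin 4, ∃ t : Fin 3,
        y ^ (n : ℕ) * v * (y ^ (n : ℕ))⁻¹ = ![i, j, j * i] t ∨
        y ^ (n : ℕ) * v * (y ^ (n : ℕ))⁻¹ = (![i, j, j * i] t)⁻¹ := by
      intro n
      rcases hsq _ (hcR n) (hcsq n) with h | h | h
      · exact ⟨0, h⟩
      · exact ⟨1, h⟩
      · exact ⟨2, h⟩
    choose fa hfa using hax
    obtain ⟨n1, n2, hlt, hfeq⟩ := pigeon fa
    have h1 := hfa n1
    have h2' := hfa n2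
    rw [← hfeq] at h2'
    have h3 : y ^ (n2 : ℕ) * v * (y ^ (n2 : ℕ))⁻¹ = y ^ (n1 : ℕ) * v * (y ^ (n1 : ℕ))⁻¹ ∨
        y ^ (n2 : ℕ) * v * (y ^ (n2 : ℕ))⁻¹ = (y ^ (n1 : ℕ) * v * (y ^ (n1 : ℕ))⁻¹)⁻¹ := by
      rcases h1 with h1 | h1 <;> rcases h2' with h2' | h2'
      · left; rw [h1, h2']
      · right; rw [h1, h2']
      · right; rw [h1, h2', inv_inv]
      · left; rw [h1, h2']
    obtain ⟨d, hd1, hd3, hdn⟩ : ∃ d : ℕ, 1 ≤ d ∧ d ≤ 3 ∧ (n2 : ℕ) = n1 + d := by
      have h4 : (n1 : ℕ) < n2 := hlt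
      have h5 : (n2 : ℕ) < 4 := n2.2
      exact ⟨n2 - n1, by omega, by omega, by omega⟩
    have h4 : y ^ d * v * (y ^ d)⁻¹ = v ∨ y ^ d * v * (y ^ d)⁻¹ = v⁻¹ := by
      rw [hdn, pow_add] at h3
      have e1 : y ^ d * v * (y ^ d)⁻¹ = (y ^ (n1 : ℕ))⁻¹ *
          (y ^ (n1 : ℕ) * y ^ d * v * (y ^ (n1 : ℕ) * y ^ d)⁻¹) * y ^ (n1 : ℕ) := by group
      rcases h3 with h3 | h3
      · left
        rw [e1, h3]
        group
      · right
        rw [e1, h3]
        group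
    have h5 : y ^ (2 * d) * v = v * y ^ (2 * d) := by
      have h6 : y ^ (2 * d) * v * (y ^ (2 * d))⁻¹ = v := by
        have e1 : y ^ (2 * d) * v * (y ^ (2 * d))⁻¹ =
            y ^ d * (y ^ d * v * (y ^ d)⁻¹) * (y ^ d)⁻¹ := by
          rw [two_mul, pow_add]
          group
        rw [e1]
        rcases h4 with h4 | h4
        · rw [h4, h4]
        · rw [h4]
          have e2 : y ^ d * v⁻¹ * (y ^ d)⁻¹ = (y ^ d * v * (y ^ d)⁻¹)⁻¹ := by group
          rw [e2, h4, inv_inv]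
      calc y ^ (2 * d) * v = (y ^ (2 * d) * v * (y ^ (2 * d))⁻¹) * y ^ (2 * d) := by group
        _ = v * y ^ (2 * d) := by rw [h6]
    have hcop : Nat.Coprime (2 * d) r := by
      apply Nat.Coprime.symm
      rw [Nat.Prime.coprime_iff_not_dvd hr]
      intro hdvd
      have hle := Nat.le_of_dvd (by omega) hdvd
      have h56 : r = 5 ∨ r = 6 := by omega
      rcases h56 with rfl | rfl
      · omega
      · norm_num at hr
    obtain ⟨m, -, hm⟩ := Nat.exists_mul_mod_eq_one_of_coprime hcop (by omega : 1 < r)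
    have h7 : (y ^ (2 * d)) ^ m = y := by
      rw [← pow_mul, ← pow_mod_orderOf, hyr, hm, pow_one]
    have h8 : (y ^ (2 * d)) ^ m * v = v * (y ^ (2 * d)) ^ m :=
      (Commute.pow_left (show Commute (y ^ (2 * d)) v from h5) m).eq
    rw [h7] at h8
    exact h8
  have hyi := hcomm i hiR rfl
  have hyj := hcomm j hjR hr2
  obtain ⟨y1, y2, y3, y4, hym⟩ : ∃ y1 y2 y3 y4 : F,
      (y : Matrix (Fin 2) (Fin 2) F) = !![y1, y2; y3, y4] := ⟨_, _, _, _, Matrix.eta_fin_two _⟩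
  have hI' : (!![y1, y2; y3, y4] : Matrix (Fin 2) (Fin 2) F) * !![a, b; c, -a] =
      !![a, b; c, -a] * !![y1, y2; y3, y4] := by
    have := congrArg Units.val hyi
    rw [Units.val_mul, Units.val_mul, hym, hI] at this
    exact this
  have hJ' : (!![y1, y2; y3, y4] : Matrix (Fin 2) (Fin 2) F) * !![e', f; g, -e'] =
      !![e', f; g, -e'] * !![y1, y2; y3, y4] := by
    have := congrArg Units.val hyj
    rw [Units.val_mul, Units.val_mul, hym, hJ] at this
    exact this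
  obtain ⟨k, hk⟩ : ∃ k : F, 2 * k = 1 := ⟨(2 : F)⁻¹, mul_inv_cancel₀ h2⟩
  obtain ⟨e2, e3, e14⟩ := scalar_of_comm a b c e' f g k y1 y2 y3 y4 ha he hij hk hI' hJ'
  have hdet := det_of_mem hy
  rw [hym, Matrix.det_fin_two_of, e2, e3, e14] at hdet
  have hy2 : y * y = 1 := by
    apply Units.ext
    rw [Units.val_mul, hym, e2, e3, e14, Matrix.mul_fin_two]
    show _ = (1 : Matrix (Fin 2) (Fin 2) F)
    rw [Matrix.one_fin_two]
    apply mat_eq <;> first | linear_combination hdet | ring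
  have hdvd : orderOf y ∣ 2 := orderOf_dvd_of_pow_eq_one (by rw [pow_two]; exact hy2)
  rw [hyr] at hdvd
  have := Nat.le_of_dvd (by norm_num) hdvd
  omega

end Cfsg.Agent.Lib.Helper16.QuatNorm
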